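import Cfsg.Agent.MaxSub.Dickson.Overgroups

/-!
Two cyclic groups of large order without rational fixed points generate a group containing
`PSL(2, q)`.
-/

set_option autoImplicit false
set_option linter.unusedSectionVars false

open scoped OnePoint MatrixGroups

namespace Cfsg.Agent.SUThreeMax

open Cfsg.Agent.MaxSub.Dickson MulAction

theorem perm4_sq_commute : ∀ x y : Equiv.Perm (Fin 4), x ^ 4 = 1 → y ^ 4 = 1 →
    x ^ 2 * y ^ 2 = y ^ 2 * x ^ 2 := by decide +kernel

theorem perm4_orders : ∀ x : Equiv.Perm (Fin 4), x ^ 2 = 1 ∨ x ^ 3 = 1 ∨ x ^ 4 = 1 := by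
  decide +kernel

theorem alt4_orders : ∀ x : alternatingGroup (Fin 4), x ^ 2 = 1 ∨ x ^ 3 = 1 := by decide +kernel

theorem alt5_orders : ∀ x : alternatingGroup (Fin 5), x ^ 2 = 1 ∨ x ^ 3 = 1 ∨ x ^ 5 = 1 := by
  decide +kernel

theorem dihedral_long_commute {n : ℕ} [NeZero n] (x y : DihedralGroup n) (hx : 3 ≤ orderOf x)
    (hy : 3 ≤ orderOf y) : x * y = y * x := by
  rcases x with i | i <;> rcases y with j | j
  · rw [DihedralGroup.r_mul_r, DihedralGroup.r_mul_r, add_comm]
  all_goals first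
    | (rw [DihedralGroup.orderOf_sr] at hx; omega)
    | (rw [DihedralGroup.orderOf_sr] at hy; omega)

variable {F : Type*} [Field F] [Fintype F] [DecidableEq F]

/-- Two non-commuting elements of order at least `(q + 1) / 3`, one without a fixed point. -/
theorem lsub_le_of_two {H : Subgroup PGL(2, F)} {a b : PGL(2, F)} (ha : a ∈ H) (hb : b ∈ H)
    (h3 : 3 ≤ orderOf a) (hab : orderOf b = orderOf a)
    (hk : Fintype.card F + 1 = orderOf a ∨ Fintype.card F + 1 = 3 * orderOf a)
    (hfix : ∀ x : OnePoint F, a • x ≠ x) (hc : ¬ Commute a b) (hc2 : Fintype.card F ≠ 3 → ¬ Commute (a ^ 2) (b ^ 2)) :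
    lsub F ≤ H := by
  classical
  obtain ⟨f, hp, hq⟩ := FiniteField.card F (ringChar F)
  haveI : Fact (ringChar F).Prime := ⟨hp⟩
  haveI : CharP F (ringChar F) := ringChar.charP F
  haveI : CharP (AlgebraicClosure F) (ringChar F) :=
    charP_of_injective_algebraMap (algebraMap F (AlgebraicClosure F)).injective _
  have hbig : ∀ {G : Type} [Group G] (e : H ≃* G),
      ∃ x y : G, orderOf x = orderOf a ∧ orderOf y = orderOf a ∧
        (Commute x y → Commute a b) ∧ (Commute (x ^ 2) (y ^ 2) → Commute (a ^ 2) (b ^ 2)) := by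
    intro G _ e
    refine ⟨e ⟨a, ha⟩, e ⟨b, hb⟩, by rw [MulEquiv.orderOf_eq, Subgroup.orderOf_mk],
      by rw [MulEquiv.orderOf_eq, Subgroup.orderOf_mk, hab], fun h => ?_, fun h => ?_⟩
    · have := (h.map e.symm.toMonoidHom).map H.subtype
      simpa using this
    · have := (h.map e.symm.toMonoidHom).map H.subtype
      simpa using this
  have hord : ∀ {G : Type} [Group G] {x : G} {n : ℕ}, x ^ n = 1 → 0 < n →
      orderOf x = orderOf a → orderOf a ∣ n ∧ orderOf a ≤ n := by
    intro G _ x n hx hn he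
    exact ⟨he ▸ orderOf_dvd_of_pow_eq_one hx, he ▸ orderOf_le_of_pow_eq_one hn hx⟩
  have hp2 : ∀ {n : ℕ}, ringChar F ≠ 2 → 2 ∣ n → Fintype.card F = n → False := by
    intro n h2 hn he
    rw [← he, hq] at hn
    exact h2 ((Nat.prime_dvd_prime_iff_eq Nat.prime_two hp).1 (Nat.prime_two.dvd_of_dvd_pow hn)).symm
  rcases classifyF (K := AlgebraicClosure F) (p := ringChar F) H with
    ⟨_, _, _, -, hcyc, -, -, -⟩ | ⟨_, _, _, n, -, -, hn, -, -, -, ⟨e⟩⟩ | ⟨x, hx, -⟩ |
    ⟨h2, -, ⟨e⟩⟩ | ⟨h2, h24, ⟨e⟩⟩ | ⟨h2, -, ⟨e⟩⟩ | ⟨F₀, h, h4, he⟩ | ⟨F₀, h, h4, -, he⟩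
  · letI := hcyc.commGroup
    exact absurd ((Commute.all (⟨a, ha⟩ : H) ⟨b, hb⟩).map H.subtype) hc
  · haveI : NeZero n := ⟨by omega⟩
    obtain ⟨x, y, hx, hy, h1, -⟩ := hbig e
    exact absurd (h1 (dihedral_long_commute x y (by omega) (by omega))) hc
  · exact absurd (hx a ha) (hfix x)
  · obtain ⟨x, y, hx, -, -, -⟩ := hbig e
    exfalso
    rcases alt4_orders x with h | h
    · have := hord h (by norm_num) hx; omega
    · obtain ⟨h1, h1'⟩ := hord h (by norm_num) hx
      rcases hk with hk | hk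
      · exact hp2 h2 ⟨1, rfl⟩ (show Fintype.card F = 2 by omega)
      · exact hp2 h2 ⟨4, rfl⟩ (show Fintype.card F = 8 by omega)
  · by_cases hF3 : Fintype.card F = 3
    · have : H = ⊤ := Subgroup.eq_top_of_card_eq _ (by rw [card_pgl, hF3, h24])
      rw [this]; exact le_top
    obtain ⟨x, y, hx, hy, -, h1⟩ := hbig e
    exfalso
    rcases perm4_orders x with h | h | h
    · have := hord h (by norm_num) hx; omega
    · obtain ⟨-, h1'⟩ := hord h (by norm_num) hx
      rcases hk with hk | hk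
      · exact hp2 h2 ⟨1, rfl⟩ (show Fintype.card F = 2 by omega)
      · exact hp2 h2 ⟨4, rfl⟩ (show Fintype.card F = 8 by omega)
    · have hy4 : y ^ 4 = 1 := by
        rw [← orderOf_dvd_iff_pow_eq_one, hy, ← hx, orderOf_dvd_iff_pow_eq_one]; exact h
      exact hc2 hF3 (h1 (perm4_sq_commute x y h hy4))
  · obtain ⟨x, y, hx, -, -, -⟩ := hbig e
    exfalso
    rcases alt5_orders x with h | h | h
    · have := hord h (by norm_num) hx; omega
    · obtain ⟨-, h1'⟩ := hord h (by norm_num) hx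
      rcases hk with hk | hk
      · exact hp2 h2 ⟨1, rfl⟩ (show Fintype.card F = 2 by omega)
      · exact hp2 h2 ⟨4, rfl⟩ (show Fintype.card F = 8 by omega)
    · obtain ⟨hd, -⟩ := hord h (by norm_num) hx
      have h5 : orderOf a = 5 := ((Nat.dvd_prime (by norm_num)).1 hd).resolve_left (by omega)
      rcases hk with hk | hk
      · exact hp2 h2 ⟨2, rfl⟩ (show Fintype.card F = 4 by omega)
      · exact hp2 h2 ⟨7, rfl⟩ (show Fintype.card F = 14 by omega)
  all_goals
    have hsmall : F₀ = ⊤ := by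
      by_contra hne
      have hsub : ∃ g : PGL(2, F₀), orderOf g = orderOf a := by
        have hm : MulAut.conj h⁻¹ a ∈ (subPGL F₀).range := by
          have hm0 := Subgroup.mem_map_of_mem (MulAut.conj h⁻¹).toMonoidHom ha
          rw [he] at hm0
          first
            | exact hm0
            | exact subPSL_le_subPGL F₀ hm0
        obtain ⟨g, hg⟩ := hm
        exact ⟨g, by rw [← orderOf_injective _ (subPGL_injective F₀), hg, MulEquiv.orderOf_eq]⟩
      obtain ⟨g, hg⟩ := hsub
      haveI : Fintype F₀ := Fintype.ofFinite _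
      have h1 := orderOf_le_card_add_one g
      rw [hg, ← Nat.card_eq_fintype_card] at h1
      obtain ⟨r, hr1, hr⟩ := card_subfield_pow F₀
      rcases Nat.lt_or_ge r 2 with hr2 | hr2
      · rw [show r = 1 by omega, pow_one] at hr
        exact hne ((subfield_eq_top_iff F₀).2 hr.symm)
      · have h5 : Nat.card F₀ * Nat.card F₀ ≤ Fintype.card F := by
          rw [hr, ← sq]; exact Nat.pow_le_pow_right (by omega) hr2
        have h6 : 4 * Nat.card F₀ ≤ Nat.card F₀ * Nat.card F₀ := Nat.mul_le_mul_right _ h4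
        omega
    subst hsmall
    have hcard : Nat.card ((⊤ : Subfield F)) = Fintype.card F := (subfield_eq_top_iff ⊤).1 rfl
    intro g hg
    have hn' := (lsub_normal (F := F)).conj_mem g hg h⁻¹
  · have hall : (subPGL (⊤ : Subfield F)).range = ⊤ := Subgroup.eq_top_of_card_eq _ (by
      rw [card_subPGL_range, card_pgl, hcard])
    obtain ⟨k, hk', hk''⟩ : h⁻¹ * g * h⁻¹⁻¹ ∈ H.map (MulAut.conj h⁻¹).toMonoidHom := by
      rw [he, hall]; trivial
    rwa [show g = k from ((MulAut.conj h⁻¹).injective hk'').symm]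
  · have hall : lsub F ≤ (subPSL (⊤ : Subfield F)).range := by
      refine (Subgroup.eq_of_le_of_card_ge (subPSL_le_lsub ⊤) ?_).ge
      have h1 := card_subPSL_range (⊤ : Subfield F)
      have h2' := card_lsub_mul (F := F)
      rw [hcard] at h1
      exact (Nat.eq_of_mul_eq_mul_left (Nat.gcd_pos_of_pos_left _ (by norm_num))
        (h2'.trans h1.symm)).le
    obtain ⟨k, hk', hk''⟩ : h⁻¹ * g * h⁻¹⁻¹ ∈ H.map (MulAut.conj h⁻¹).toMonoidHom := by
      rw [he]; exact hall hn'
    rwa [show g = k from ((MulAut.conj h⁻¹).injective hk'').symm]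

end Cfsg.Agent.SUThreeMax
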