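import Cfsg.Agent.SUThreeMax.Plane
import Cfsg.Agent.SUThreeMax.TwoTori
import Cfsg.Agent.DecompMax.UnitMon

/-!
Two full groups of homologies with non-orthogonal centres give the transvections of a line.
-/

set_option autoImplicit false
set_option maxHeartbeats 1000000

namespace Cfsg.Agent.SUThreeMax

open Matrix Cfsg.Geo Cfsg.Agent.Classical.U Cfsg.Agent.ClassicalMax Cfsg.Agent.GeoClasses
open scoped MatrixGroups Matrix OnePoint

universe u

variable {F : Type u} [Field F] {q : ℕ}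

/-- `M` contains the homologies `(β⁻², β, β)` at the unit vector `y`. -/
def Homs (q : ℕ) (M : Subgroup (UG 3 F q)) (y : Fin 3 → F) : Prop :=
  herm q y y = 1 ∧ ∀ β : F, β * β ^ q = 1 →
    ∃ p ∈ M, ∀ v, p.1 v = β • v + ((β ^ q * β ^ q - β) * herm q v y) • y

variable (hF : SqField F q)
include hF

omit hF in
theorem Homs.map {M : Subgroup (UG 3 F q)} {y : Fin 3 → F} (h : Homs q M y) {g : UG 3 F q}
    (hg : g ∈ M) : Homs q M (g.1 y) := by
  refine ⟨by rw [UG_app]; exact h.1, fun β hβ => ?_⟩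
  obtain ⟨p, hp, hpv⟩ := h.2 β hβ
  refine ⟨g * p * g⁻¹, mul_mem (mul_mem hg hp) (inv_mem hg), fun v => ?_⟩
  obtain ⟨w, rfl⟩ := g.1.surjective v
  rw [Subgroup.coe_mul, Subgroup.coe_mul, LinearEquiv.mul_apply, LinearEquiv.mul_apply, UG_app]
  have : (g⁻¹ : UG 3 F q).1 (g.1 w) = w := by simp
  rw [this, hpv, map_add, map_smul, map_smul]

omit hF in
theorem pow_formula {y : Fin 3 → F} (hy : herm q y y = 1) {β ζ : F} {p : UG 3 F q}
    (h : ∀ v, p.1 v = β • v + ((ζ - β) * herm q v y) • y) (n : ℕ) :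
    ∀ v, (p ^ n).1 v = β ^ n • v + ((ζ ^ n - β ^ n) * herm q v y) • y := by
  induction n with
  | zero => intro v; simp
  | succ n ih =>
    intro v
    rw [pow_succ, Subgroup.coe_mul, LinearEquiv.mul_apply, h, ih, herm_add_left, herm_smul_left,
      herm_smul_left, hy]
    match_scalars <;> ring

namespace Pl

variable (D : Pl q F)

theorem scalar_of_rep_one {g : UG 3 F q} (hgf : D.Fix g) (h : D.Rep hF g 1) :
    ∃ lam : F, ∀ v, herm q v D.z = 0 → g.1 v = lam • v := by
  obtain ⟨A, lam, -, hA, hmat⟩ := h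
  rw [← map_one (ProjGenLinGroup.mk (n := Fin 2) (R := R0 hF))] at hA
  obtain ⟨c, hc⟩ := ProjGenLinGroup.mk_eq_mk_iff.1 hA
  have hA' : ∀ i j, (A : Matrix (Fin 2) (Fin 2) (R0 hF)) i j * (c : R0 hF) =
      (1 : Matrix (Fin 2) (Fin 2) (R0 hF)) i j := by
    intro i j
    have := congrArg (fun X : GL (Fin 2) (R0 hF) => (X : Matrix (Fin 2) (Fin 2) (R0 hF)) i j) hc
    fin_cases i <;> fin_cases j <;>
      simpa [Matrix.mul_apply, Matrix.diagonal] using this
  have hcA : ∀ i j, ((A : Matrix (Fin 2) (Fin 2) (R0 hF)) i j : F) =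
      (((1 : Matrix (Fin 2) (Fin 2) (R0 hF)) i j : R0 hF) : F) / ((c : R0 hF) : F) := fun i j => by
    rw [← hA' i j, Subfield.coe_mul, mul_div_cancel_right₀]
    exact fun h0 => c.ne_zero (Subtype.ext h0)
  refine ⟨lam / ((c : R0 hF) : F), fun v hv => ?_⟩
  have e := fun i j => congrFun (congrFun hmat i) j
  have e00 := e 0 0; have e01 := e 0 1; have e10 := e 1 0; have e11 := e 1 1
  simp [Pl.mat, hcA] at e00 e01 e10 e11
  have he := D.decomp_perp hF (D.perp_map hgf D.hez)
  have hf := D.decomp_perp hF (D.perp_map hgf D.hfz)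
  rw [e00, e10, zero_smul, add_zero] at he
  rw [e01, e11, zero_smul, zero_add] at hf
  conv_lhs => rw [D.decomp_perp hF hv, map_add, map_smul, map_smul, he, hf]
  conv_rhs => rw [D.decomp_perp hF hv]
  module

theorem rep_one_of_scalar {g : UG 3 F q} {lam : F} (hlam : lam ≠ 0)
    (h : ∀ v, herm q v D.z = 0 → g.1 v = lam • v) : D.Rep hF g 1 := by
  refine ⟨1, lam, hlam, map_one _, ?_⟩
  rw [Units.val_one, Matrix.map_one _ rfl rfl]
  ext i j
  fin_cases i <;> fin_cases j <;>
    simp [Pl.mat, h _ D.hez, h _ D.hfz, cA, cB, herm_smul_left, D.he, D.hf, D.hef, D.hfe hF,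
      mul_div_assoc, div_self D.hη0, neg_div]

theorem proj_eq {g g' : UG 3 F q} (hg : D.Fix g) (hg' : D.Fix g') {P : PGL(2, R0 hF)}
    (h : D.Rep hF g P) (h' : D.Rep hF g' P) :
    ∃ lam : F, ∀ v, herm q v D.z = 0 → g'.1 v = lam • g.1 v := by
  obtain ⟨Q, hQ⟩ := D.exists_rep hF (D.fix_inv hF hg)
  have hPQ := D.rep_mul hF (D.fix_inv hF hg) h hQ
  rw [mul_inv_cancel] at hPQ
  have := D.rep_mul hF hg' hQ h'
  rw [show Q = P⁻¹ from (inv_eq_of_mul_eq_one_right (D.rep_unique hF hPQ (D.rep_one hF))).symm,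
    inv_mul_cancel] at this
  obtain ⟨lam, hl⟩ := D.scalar_of_rep_one hF (D.fix_mul (D.fix_inv hF hg) hg') this
  refine ⟨lam, fun v hv => ?_⟩
  rw [← map_smul, ← hl v hv, Subgroup.coe_mul, LinearEquiv.mul_apply]
  simp

theorem no_fixed {p : UG 3 F q} (hfp : D.Fix p) {P : PGL(2, R0 hF)} (hP : D.Rep hF p P)
    (hno : ∀ v, herm q v D.z = 0 → v ≠ 0 → herm q v v = 0 → ∀ ν : F, p.1 v ≠ ν • v)
    [DecidableEq (R0 hF)] :
    open scoped Cfsg.Agent.MaxSub.Dickson in ∀ o : OnePoint (R0 hF), P • o ≠ o := by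
  open scoped Cfsg.Agent.MaxSub.Dickson in
  intro o ho
  obtain ⟨A, lam, hlam, rfl, hmat⟩ := hP
  rw [MaxSub.Dickson.mk_smul] at ho
  have e := fun i j => congrFun (congrFun hmat i) j
  have e00 := e 0 0; have e01 := e 0 1; have e10 := e 1 0; have e11 := e 1 1
  simp [Pl.mat] at e00 e01 e10 e11
  have he := D.decomp_perp hF (D.perp_map hfp D.hez)
  have hf := D.decomp_perp hF (D.perp_map hfp D.hfz)
  induction o using OnePoint.rec with
  | infty =>
    have h10 := OnePoint.smul_infty_eq_self_iff.1 ho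
    have h0 : D.e ≠ 0 := fun h => D.hη0 (by rw [← D.hef, h, herm_zero_left])
    refine hno D.e D.hez h0 D.he (D.cA (p.1 D.e)) ?_
    rw [e10, h10] at he
    simpa using he
  | coe t =>
    have h0 : (t : F) • D.e + D.f ≠ 0 := fun h => D.hη0 (by
      have := congrArg (fun w => herm q w D.e) h
      simp only [herm_add_left, herm_smul_left, D.he, D.hfe hF, herm_zero_left, mul_zero, zero_add,
        neg_eq_zero] at this
      exact this)
    have htq : (t : F) ^ q = t := t.2
    have hiso : herm q ((t : F) • D.e + D.f) ((t : F) • D.e + D.f) = 0 := by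
      rw [herm_add_left, hF.herm_add_right, hF.herm_add_right, herm_smul_left, herm_smul_left,
        herm_smul_right, herm_smul_right, D.he, D.hf, D.hef, D.hfe hF, htq]
      ring
    rw [OnePoint.smul_some_eq_ite] at ho
    split_ifs at ho with hden
    · exact OnePoint.infty_ne_coe _ ho
    have h1 := congrArg (fun x : R0 hF => (x : F)) (OnePoint.coe_injective ho)
    have hden' : ((A : Matrix (Fin 2) (Fin 2) (R0 hF)) 1 0 : F) * t +
        ((A : Matrix (Fin 2) (Fin 2) (R0 hF)) 1 1 : F) ≠ 0 := fun h => hden (Subtype.ext h)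
    simp only [Subfield.coe_div, Subfield.coe_add, Subfield.coe_mul] at h1
    rw [div_eq_iff hden'] at h1
    refine hno _ (by rw [herm_add_left, herm_smul_left, D.hez, D.hfz]; ring) h0 hiso
      (lam * (((A : Matrix (Fin 2) (Fin 2) (R0 hF)) 1 0 : F) * t +
        ((A : Matrix (Fin 2) (Fin 2) (R0 hF)) 1 1 : F))) ?_
    rw [map_add, map_smul, he, hf, e00, e10, e01, e11]
    match_scalars
    · linear_combination lam * h1
    · ring

end Pl

omit hF in
theorem three_case {q k : ℕ} (hk : k = (q + 1) / Nat.gcd (q + 1) 3) :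
    q + 1 = k ∨ q + 1 = 3 * k := by
  have hd := Nat.gcd_dvd_left (q + 1) 3
  have h3 := Nat.gcd_dvd_right (q + 1) 3
  rcases (Nat.dvd_prime Nat.prime_three).1 h3 with h | h
  · left; rw [hk, h, Nat.div_one]
  · right; rw [hk, h]; rw [h] at hd; omega

/-- A norm-one scalar whose cube inverse has order at least three. -/
theorem exists_gen (hq : 3 ≤ q) (hq5 : q ≠ 5) :
    ∃ μ : F, μ * μ ^ q = 1 ∧ orderOf μ = q + 1 ∧ 3 ≤ orderOf ((μ ^ 3)⁻¹) ∧
      (q + 1 = orderOf ((μ ^ 3)⁻¹) ∨ q + 1 = 3 * orderOf ((μ ^ 3)⁻¹)) := by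
  haveI : Finite F := hF.1
  obtain ⟨g, hg⟩ := IsCyclic.exists_ofOrder_eq_natCard (α := Fˣ)
  rw [hF.card_units] at hg
  set w : Fˣ := g ^ (q - 1) with hw
  have how : orderOf w = q + 1 := by
    rw [hw, orderOf_pow, hg, Nat.gcd_mul_right_left, Nat.mul_div_cancel_left _ (by omega)]
  have ho : orderOf ((w : Fˣ) : F) = q + 1 := by rw [orderOf_units, how]
  have hk : orderOf ((((w : Fˣ) : F) ^ 3)⁻¹) = (q + 1) / Nat.gcd (q + 1) 3 := by
    rw [← Units.val_pow_eq_pow_val, ← Units.val_inv_eq_inv_val, orderOf_units, orderOf_inv,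
      orderOf_pow, how]
  refine ⟨(w : F), by rw [← pow_succ', ← ho, pow_orderOf_eq_one], ho, ?_, three_case hk⟩
  rcases three_case hk with h | h <;> omega

/-- Two homology groups with non-orthogonal centres give two centres of transvections. -/
theorem centres_of_two_homs (hq : 3 ≤ q) (hq5 : q ≠ 5) {M : Subgroup (UG 3 F q)}
    {x y : Fin 3 → F} (hx : Homs q M x) (hy : Homs q M y)
    (hs0 : herm q y x * herm q x y ≠ 0) (hs1 : herm q y x * herm q x y ≠ 1)
    (hs2 : q + 1 = 12 → 2 * (herm q y x * herm q x y) ≠ 1) :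
    ∃ D : Pl q F, herm q x D.z = 0 ∧ herm q y D.z = 0 ∧
      D.e ∈ trvCentres hF M ∧ D.f ∈ trvCentres hF M := by
  classical
  haveI : Finite F := hF.1
  set c := herm q y x with hc
  set c' := herm q x y with hc'
  have hcc : (1 : F) - c' * c ≠ 0 := sub_ne_zero.2 fun h => hs1 (by rw [mul_comm]; exact h.symm)
  set π : (Fin 3 → F) →ₗ[F] (Fin 2 → F) := LinearMap.pi ![hermDual q x, hermDual q y] with hπ
  have hπ0 : ∀ v, π v 0 = herm q v x := fun v => rfl
  have hπ1 : ∀ v, π v 1 = herm q v y := fun v => rfl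
  have hsurj : LinearMap.range π = ⊤ := LinearMap.range_eq_top.2 fun w => by
    refine ⟨(w 0 - (w 1 - c' * w 0) / (1 - c' * c) * c) • x + ((w 1 - c' * w 0) / (1 - c' * c)) • y, ?_⟩
    ext i; fin_cases i
    · simp [hπ0, herm_add_left, herm_smul_left, hx.1, ← hc]
    · simp [hπ1, herm_add_left, herm_smul_left, hy.1, ← hc']
      field_simp
      ring
  have hker : Module.finrank F (LinearMap.ker π) = 1 := by
    have := LinearMap.finrank_range_add_finrank_ker π
    rw [hsurj, finrank_top, Module.finrank_fin_fun, Module.finrank_fin_fun] at this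
    omega
  obtain ⟨⟨z, hzk⟩, hz0, hzspan⟩ := finrank_eq_one_iff'.1 hker
  have hzx : herm q z x = 0 := by rw [← hπ0]; rw [LinearMap.mem_ker.1 hzk]; rfl
  have hzy : herm q z y = 0 := by rw [← hπ1]; rw [LinearMap.mem_ker.1 hzk]; rfl
  have hxz : herm q x z = 0 := by rw [← hF.herm_symm, hzx, zero_pow hF.q_ne_zero]
  have hyz : herm q y z = 0 := by rw [← hF.herm_symm, hzy, zero_pow hF.q_ne_zero]
  have hzz : herm q z z ≠ 0 := by
    intro h0
    refine hz0 (Subtype.ext (hF.eq_zero_of_herm z fun v => ?_))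
    obtain ⟨w, hw⟩ : ∃ w, w = π v := ⟨_, rfl⟩
    set a := (w 0 - (w 1 - c' * w 0) / (1 - c' * c) * c)
    set b := ((w 1 - c' * w 0) / (1 - c' * c))
    have hmem : v - a • x - b • y ∈ LinearMap.ker π := by
      rw [LinearMap.mem_ker]
      ext i; fin_cases i
      · simp [hπ0, herm_sub_left, herm_smul_left, hx.1, ← hc, a, b, hw]
      · simp [hπ1, herm_sub_left, herm_smul_left, hy.1, ← hc', a, b, hw]
        field_simp
        ring
    obtain ⟨d, hd⟩ := hzspan ⟨_, hmem⟩
    have hd' : v = a • x + b • y + d • z := by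
      have := congrArg Subtype.val hd
      simp only [SetLike.val_smul] at this
      rw [this]; abel
    rw [← hF.herm_symm, hd', herm_add_left, herm_add_left, herm_smul_left, herm_smul_left,
      herm_smul_left, hxz, hyz, h0]
    simp [hF.q_ne_zero]
  obtain ⟨D, rfl⟩ := exists_pl hF hzz
  haveI : Fintype (R0 hF) := Fintype.ofFinite _
  refine ⟨D, hxz, hyz, D.centres_of_lsub hF ?_⟩
  have hcard : Fintype.card (R0 hF) = q := by
    rw [← Nat.card_eq_fintype_card]; exact card_fixed_qConj hF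
  obtain ⟨μ, hμ, hμo, hk3, hk⟩ := exists_gen hF hq hq5
  obtain ⟨p, hp, hpv⟩ := hx.2 μ hμ
  obtain ⟨p', hp', hpv'⟩ := hy.2 μ hμ
  set ζ := μ ^ q * μ ^ q with hζ
  have hμ0 : μ ≠ 0 := fun h => by rw [h, zero_mul] at hμ; exact zero_ne_one hμ
  have hR : ζ / μ = (μ ^ 3)⁻¹ := by
    rw [hζ, show μ ^ q = μ⁻¹ from eq_inv_of_mul_eq_one_right hμ]
    field_simp
  have hfp : D.Fix p := ⟨μ, by rw [hpv, hzx, mul_zero, zero_smul, add_zero]⟩
  have hfp' : D.Fix p' := ⟨μ, by rw [hpv', hzy, mul_zero, zero_smul, add_zero]⟩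
  obtain ⟨P, hP⟩ := D.exists_rep hF hfp
  obtain ⟨P', hP'⟩ := D.exists_rep hF hfp'
  have hζ0 : ζ ≠ 0 := mul_ne_zero (pow_ne_zero _ hμ0) (pow_ne_zero _ hμ0)
  have hxy_ne : ∀ d : F, y ≠ d • x := fun d hd => hs1 (by
    have h1 := hy.1
    rw [hd, herm_smul_left, herm_smul_right, hx.1] at h1
    rw [hc, hc', hd, herm_smul_left, herm_smul_right, hx.1]
    linear_combination h1)
  have order : ∀ {x₀ y₀ : Fin 3 → F} {p₀ : UG 3 F q} {P₀ : PGL(2, R0 hF)}, herm q x₀ x₀ = 1 →
      herm q x₀ D.z = 0 → herm q y₀ D.z = 0 → (∀ d : F, y₀ ≠ d • x₀) →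
      (∀ v, p₀.1 v = μ • v + ((ζ - μ) * herm q v x₀) • x₀) → D.Fix p₀ → D.Rep hF p₀ P₀ →
      orderOf P₀ = orderOf ((μ ^ 3)⁻¹) := by
    intro x₀ y₀ p₀ P₀ hx0 hxz0 hyz0 hne hv0 hf0 hP0
    refine orderOf_eq_orderOf_iff.2 fun n => ?_
    rw [← hR, div_pow, div_eq_one_iff_eq (pow_ne_zero _ hμ0)]
    obtain ⟨hfn, hrn⟩ := D.rep_pow hF hf0 hP0 n
    have hform := pow_formula hx0 hv0 n
    constructor
    · intro h1
      rw [h1] at hrn
      obtain ⟨lam, hl⟩ := D.scalar_of_rep_one hF hfn hrn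
      have e1 := hl x₀ hxz0
      rw [hform, hx0, ← add_smul] at e1
      have hxne : x₀ ≠ 0 := fun h => by rw [h, herm_zero_left] at hx0; exact zero_ne_one hx0
      have el := smul_left_injective F hxne e1
      have hw : y₀ - herm q y₀ x₀ • x₀ ≠ 0 := fun h => hne _ (sub_eq_zero.1 h)
      have e2 := hl (y₀ - herm q y₀ x₀ • x₀)
        (by rw [herm_sub_left, herm_smul_left, hyz0, hxz0]; ring)
      rw [hform, herm_sub_left, herm_smul_left, hx0, mul_one, sub_self, mul_zero, zero_smul,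
        add_zero] at e2
      have el2 := smul_left_injective F hw e2
      linear_combination el - el2
    · intro h1
      refine D.rep_unique hF hrn (D.rep_one_of_scalar hF (pow_ne_zero n hμ0) fun v hv => ?_)
      rw [hform, h1, sub_self, zero_mul, zero_smul, add_zero]
  have hoP := order hx.1 hxz hyz hxy_ne hpv hfp hP
  have hoP' := order hy.1 hyz hxz (fun d hd => hs1 (by
    have h1 := hx.1
    rw [hd, herm_smul_left, herm_smul_right, hy.1] at h1
    rw [hc, hc', hd, herm_smul_left, herm_smul_right, hy.1]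
    linear_combination h1)) hpv' hfp' hP'
  have hxne : x ≠ 0 := fun h => by
    have := hx.1
    rw [h, herm_zero_left] at this
    exact zero_ne_one this
  have key : ∀ n m : ℕ, Commute (P ^ n) (P' ^ m) → (ζ / μ) ^ n ≠ 1 → (ζ / μ) ^ m ≠ 1 →
      ((ζ / μ) ^ m - 1) * (c' * c) = -1 := by
    intro n m hcm hn0 hm
    rw [div_pow, Ne, div_eq_one_iff_eq (pow_ne_zero _ hμ0)] at hm
    obtain ⟨hf1, hr1⟩ := D.rep_pow hF hfp hP n
    obtain ⟨hf2, hr2⟩ := D.rep_pow hF hfp' hP' m
    have h12 := D.rep_mul hF hf2 hr1 hr2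
    rw [hcm.eq] at h12
    obtain ⟨lam, hl⟩ := D.proj_eq hF (D.fix_mul hf2 hf1) (D.fix_mul hf1 hf2)
      (D.rep_mul hF hf1 hr2 hr1) h12
    have e := hl x hxz
    rw [Subgroup.coe_mul, LinearEquiv.mul_apply, Subgroup.coe_mul, LinearEquiv.mul_apply] at e
    rw [pow_formula hx.1 hpv n x, hx.1, mul_one, ← add_smul, map_smul] at e
    rw [pow_formula hy.1 hpv' m x, ← hc'] at e
    set u := μ ^ m • x + ((ζ ^ m - μ ^ m) * c') • y with hu
    rw [pow_formula hx.1 hpv n u] at e
    set ν := lam * (μ ^ n + (ζ ^ n - μ ^ n))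
    have hν : ((ζ ^ n - μ ^ n) * herm q u x) • x = (ν - μ ^ n) • u := by
      rw [sub_smul ν, eq_sub_iff_add_eq, add_comm, e, smul_smul]
    rcases eq_or_ne (ν - μ ^ n) 0 with h0 | h0
    · rw [h0, zero_smul, smul_eq_zero] at hν
      rcases mul_eq_zero.1 (hν.resolve_right hxne) with h1 | h1
      · have hfn := D.rep_unique hF hr1 (D.rep_one_of_scalar hF (pow_ne_zero n hμ0) fun v hv => by
          rw [pow_formula hx.1 hpv n v, h1, zero_mul, zero_smul, add_zero])
        rw [← orderOf_dvd_iff_pow_eq_one, hoP, ← hR, orderOf_dvd_iff_pow_eq_one] at hfn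
        exact absurd hfn hn0
      · rw [hu, herm_add_left, herm_smul_left, herm_smul_left, hx.1, ← hc] at h1
        rw [div_pow]
        field_simp
        linear_combination h1
    · exfalso
      have h2 : ((ν - μ ^ n) * ((ζ ^ m - μ ^ m) * c')) • y =
          ((ζ ^ n - μ ^ n) * herm q u x - (ν - μ ^ n) * μ ^ m) • x := by
        rw [sub_smul _ _ x, hν, hu, smul_add, smul_smul, smul_smul]; abel
      have hne : (ν - μ ^ n) * ((ζ ^ m - μ ^ m) * c') ≠ 0 :=
        mul_ne_zero h0 (mul_ne_zero (sub_ne_zero.2 hm) fun h => hs0 (by rw [h, mul_zero]))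
      exact hxy_ne _ (((eq_inv_smul_iff₀ hne).2 h2).trans (smul_smul _ _ _))
  have hk1 : (ζ / μ) ≠ 1 := fun h => by rw [← hR, h, orderOf_one] at hk3; omega
  have hk2 : (ζ / μ) ^ 2 ≠ 1 := fun h => by
    have := orderOf_le_of_pow_eq_one two_pos h
    rw [hR] at this
    omega
  have hc1 : ¬ Commute P P' := fun h => by
    have h1 := key 1 1 (by simpa using h) (by simpa using hk1) (by simpa using hk1)
    have h2 := key 1 2 (by simpa using h.pow_right 2) (by simpa using hk1) hk2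
    rw [pow_one] at h1
    have h4 : (ζ / μ) * ((ζ / μ) - 1) * (c' * c) = 0 := by linear_combination h2 - h1
    refine (mul_eq_zero.1 h4).elim (fun h5 => (mul_eq_zero.1 h5).elim
      (div_ne_zero hζ0 hμ0) (sub_ne_zero.2 hk1)) fun h5 => hs0 (by rw [mul_comm]; exact h5)
  have hc2 : Fintype.card (R0 hF) ≠ 3 → ¬ Commute (P ^ 2) (P' ^ 2) := fun h3 h => by
    have h1 := key 2 2 h hk2 hk2
    by_cases h4 : (ζ / μ) ^ 4 = 1
    · have h5 : (ζ / μ) ^ 2 = -1 := by
        have : ((ζ / μ) ^ 2 - 1) * ((ζ / μ) ^ 2 + 1) = 0 := by linear_combination h4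
        exact eq_neg_of_add_eq_zero_left ((mul_eq_zero.1 this).resolve_left (sub_ne_zero.2 hk2))
      have h6 := orderOf_dvd_of_pow_eq_one h4
      rw [hR] at h6
      have h7 : orderOf ((μ ^ 3)⁻¹) = 4 := by
        have := Nat.le_of_dvd (by norm_num) h6
        interval_cases orderOf ((μ ^ 3)⁻¹) <;> omega
      refine hs2 (by rw [hcard] at h3; omega) ?_
      rw [h5] at h1
      linear_combination -h1
    · have h2 := key 2 4 (by
        have := h.pow_right 2
        rwa [← pow_mul] at this) hk2 h4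
      have h5 : (ζ / μ) ^ 2 * ((ζ / μ) ^ 2 - 1) * (c' * c) = 0 := by linear_combination h2 - h1
      refine (mul_eq_zero.1 h5).elim (fun h5 => (mul_eq_zero.1 h5).elim
        (pow_ne_zero _ (div_ne_zero hζ0 hμ0)) (sub_ne_zero.2 hk2)) fun h5 => hs0 (by rw [mul_comm]; exact h5)
  refine lsub_le_of_two ⟨p, hp, hfp, hP⟩ ⟨p', hp', hfp', hP'⟩ (by rw [hoP]; exact hk3)
    (by rw [hoP, hoP']) (by rw [hoP, hcard]; exact hk) (D.no_fixed hF hfp hP ?_) hc1 hc2
  intro v hvz hv0 hvv ν hν
  rw [hpv] at hν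
  have hxd := D.decomp_perp hF hxz
  by_cases h1 : herm q v x = 0
  · -- an isotropic vector of the line orthogonal to `x` vanishes
    have hmem : v - 0 • x = v := by simp
    set w := y - c • x with hw
    have hwx : herm q w x = 0 := by rw [hw, herm_sub_left, herm_smul_left, hx.1, ← hc]; ring
    have hwz : herm q w D.z = 0 := by rw [hw, herm_sub_left, herm_smul_left, hyz, hxz]; ring
    set t := herm q v y / herm q w y
    have hwy : herm q w y = 1 - c * c' := by rw [hw, herm_sub_left, herm_smul_left, hy.1, ← hc']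
    have hwy0 : herm q w y ≠ 0 := by rw [hwy, mul_comm]; exact hcc
    have hvt : v - t • w ∈ LinearMap.ker π := by
      rw [LinearMap.mem_ker]
      ext i; fin_cases i
      · simp [hπ0, herm_sub_left, herm_smul_left, h1, hwx]
      · simp [hπ1, herm_sub_left, herm_smul_left, t, div_mul_cancel₀ _ hwy0]
    obtain ⟨d, hd⟩ := hzspan ⟨_, hvt⟩
    have hd' : v = t • w + d • D.z := by
      have := congrArg Subtype.val hd
      simp only [SetLike.val_smul] at this
      rw [this]; abel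
    have hd0 : d = 0 := by
      have := hvz
      rw [hd', herm_add_left, herm_smul_left, herm_smul_left, hwz, mul_zero, zero_add] at this
      exact (mul_eq_zero.1 this).resolve_right D.hz
    rw [hd0, zero_smul, add_zero] at hd'
    have hww : herm q w w = 1 - c * c' := by
      conv_lhs => arg 3; rw [hw]
      rw [hF.herm_sub_right, herm_smul_right, hwx, hwy]; ring
    rw [hd', herm_smul_left, herm_smul_right, hww] at hvv
    have ht : t = 0 := by
      rcases mul_eq_zero.1 hvv with h | h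
      · exact h
      · exact ((pow_eq_zero_iff hF.q_ne_zero).1 ((mul_eq_zero.1 h).resolve_right
          (by rw [mul_comm]; exact hcc)))
    exact hv0 (by rw [hd', ht, zero_smul])
  · have h2 : (ν - μ) • v = ((ζ - μ) * herm q v x) • x := by rw [sub_smul, ← hν]; abel
    have h3 : ν - μ ≠ 0 := fun h => by
      rw [h, zero_smul] at h2
      refine (smul_eq_zero.1 h2.symm).elim (fun h4 => (mul_eq_zero.1 h4).elim (fun h5 => hk1 ?_) h1) hxne
      rw [div_eq_one_iff_eq hμ0]; exact sub_eq_zero.1 h5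
    rw [← eq_inv_smul_iff₀ h3, smul_smul] at h2
    have h6 := hvv
    rw [h2, herm_smul_left, herm_smul_right, hx.1, mul_one] at h6
    refine hv0 ?_
    rw [h2]
    rcases mul_eq_zero.1 h6 with h | h
    · rw [h, zero_smul]
    · rw [(pow_eq_zero_iff hF.q_ne_zero).1 h, zero_smul]

end Cfsg.Agent.SUThreeMax
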