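import Cfsg.Agent.SUThreeMax.Stab
import Cfsg.Agent.GeoClasses.UnitBase
import Cfsg.Agent.MaxSub.Dickson.Maximal

/-!
The action of the stabiliser of a non-degenerate point on its orthogonal line, as a subgroup of
`PGL(2, q)`, and the transvections it forces.
-/

set_option autoImplicit false

namespace Cfsg.Agent.SUThreeMax

open Matrix Cfsg.Geo Cfsg.Agent.Classical.U Cfsg.Agent.ClassicalMax Cfsg.Agent.GeoClasses
open scoped MatrixGroups Matrix

universe u

variable {F : Type u} [Field F] {q : ℕ}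

/-- The field with `q` elements inside `F`. -/
abbrev R0 (hF : SqField F q) : Subfield F :=
  RingHom.eqLocusField (Cfsg.Agent.GeoClasses.qConj hF).toRingHom (RingHom.id F)

/-- An isotropic basis of the line orthogonal to a non-degenerate point. -/
structure Pl (q : ℕ) (F : Type u) [Field F] where
  /-- the point -/
  z : Fin 3 → F
  /-- first isotropic vector -/
  e : Fin 3 → F
  /-- second isotropic vector -/
  f : Fin 3 → F
  /-- their product -/
  η : F
  hz : herm q z z ≠ 0
  he : herm q e e = 0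
  hf : herm q f f = 0
  hef : herm q e f = η
  hη : η ^ q = -η
  hη0 : η ≠ 0
  hez : herm q e z = 0
  hfz : herm q f z = 0

/-- Any non-degenerate point has such a basis. -/
theorem exists_pl (hF : SqField F q) {z : Fin 3 → F} (hz : herm q z z ≠ 0) :
    ∃ D : Pl q F, D.z = z := by
  set S : Submodule F (Fin 3 → F) := LinearMap.ker (hermDual q z) with hSdef
  have hS : 2 ≤ Module.finrank F S := by
    have h1 := LinearMap.finrank_range_add_finrank_ker (hermDual q z)
    have h2 := Submodule.finrank_le (LinearMap.range (hermDual q z))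
    rw [Module.finrank_self] at h2
    rw [Module.finrank_fin_fun] at h1
    show 2 ≤ Module.finrank F (LinearMap.ker (hermDual q z))
    omega
  obtain ⟨e, heS, he0, he⟩ := exists_isotropic_mem hF hS
  have hez : herm q e z = 0 := heS
  obtain ⟨f, hfS, hp⟩ := exists_pair_mem hF (S := S) heS he (by
    by_contra hcon
    push Not at hcon
    refine he0 (hF.eq_zero_of_herm e fun v => ?_)
    have hv : v - (herm q v z / herm q z z) • z ∈ S := by
      show herm q _ z = 0
      rw [herm_sub_left, herm_smul_left, div_mul_cancel₀ _ hz, sub_self]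
    have := hcon _ hv
    rw [herm_sub_left, herm_smul_left, ← hF.herm_symm e z, hez, zero_pow hF.q_ne_zero, mul_zero,
      sub_zero] at this
    rw [← hF.herm_symm, this, zero_pow hF.q_ne_zero])
  have hfz : herm q f z = 0 := hfS
  obtain ⟨d, hd0, hd⟩ := hF.exists_skew
  exact ⟨⟨z, e, d • f, d ^ q, hz, he, by rw [herm_smul_left, herm_smul_right, hp.2.1, mul_zero, mul_zero],
    by rw [herm_smul_right, hp.2.2, mul_one],
    by rw [hd, hF.neg_pow, hd],
    pow_ne_zero _ hd0, hez, by rw [herm_smul_left, hfz, mul_zero]⟩, rfl⟩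

namespace Pl

variable (D : Pl q F)

/-- First coordinate. -/
noncomputable def cA (v : Fin 3 → F) : F := herm q v D.f / D.η

/-- Second coordinate. -/
noncomputable def cB (v : Fin 3 → F) : F := -herm q v D.e / D.η

/-- The matrix of an element on the line. -/
noncomputable def mat (g : UG 3 F q) : Matrix (Fin 2) (Fin 2) F :=
  !![D.cA (g.1 D.e), D.cA (g.1 D.f); D.cB (g.1 D.e), D.cB (g.1 D.f)]

/-- The elements fixing the point. -/
def Fix (g : UG 3 F q) : Prop := ∃ ζ : F, g.1 D.z = ζ • D.z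

variable (hF : SqField F q)

/-- The element acts as `P`. -/
def Rep (g : UG 3 F q) (P : PGL(2, R0 hF)) : Prop :=
  ∃ (A : GL (Fin 2) (R0 hF)) (lam : F), lam ≠ 0 ∧ ProjGenLinGroup.mk A = P ∧
    D.mat g = lam • (A : Matrix (Fin 2) (Fin 2) (R0 hF)).map Subtype.val

include hF

theorem hfe : herm q D.f D.e = -D.η := by rw [← hF.herm_symm, D.hef, D.hη]

theorem hze : herm q D.z D.e = 0 := by rw [← hF.herm_symm, D.hez, zero_pow hF.q_ne_zero]

theorem hzf : herm q D.z D.f = 0 := by rw [← hF.herm_symm, D.hfz, zero_pow hF.q_ne_zero]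

theorem decomp (v : Fin 3 → F) :
    v = D.cA v • D.e + D.cB v • D.f + (herm q v D.z / herm q D.z D.z) • D.z := by
  set r := v - D.cA v • D.e - D.cB v • D.f with hr
  have hre : herm q r D.e = 0 := by
    rw [hr, herm_sub_left, herm_sub_left, herm_smul_left, herm_smul_left, D.he, D.hfe hF, cB,
      mul_neg, div_mul_cancel₀ _ D.hη0]
    ring
  have hrf : herm q r D.f = 0 := by
    rw [hr, herm_sub_left, herm_sub_left, herm_smul_left, herm_smul_left, D.hf, D.hef, cA,
      div_mul_cancel₀ _ D.hη0]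
    ring
  have hp : IsUPair q D.e ((D.η⁻¹) ^ q • D.f) := ⟨D.he,
    by rw [herm_smul_left, herm_smul_right, D.hf, mul_zero, mul_zero],
    by rw [herm_smul_right, D.hef, hF.pow_pow, inv_mul_cancel₀ D.hη0]⟩
  have hz0 : D.z ≠ 0 := fun h => D.hz (by rw [h, herm_zero_left])
  obtain ⟨c, hc⟩ := perp_multiple hF hp (D.hze hF)
    (by rw [herm_smul_right, D.hzf hF, mul_zero]) hre (by rw [herm_smul_right, hrf, mul_zero]) hz0
  have hrz : herm q r D.z = herm q v D.z := by
    rw [hr, herm_sub_left, herm_sub_left, herm_smul_left, herm_smul_left, D.hez, D.hfz]; ring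
  have hcv : c = herm q v D.z / herm q D.z D.z := by
    rw [← hrz, hc, herm_smul_left, mul_div_cancel_right₀ _ D.hz]
  rw [← hcv, ← hc, hr]
  abel

theorem decomp_perp {v : Fin 3 → F} (hv : herm q v D.z = 0) : v = D.cA v • D.e + D.cB v • D.f := by
  have := D.decomp hF v
  rwa [hv, zero_div, zero_smul, add_zero] at this

omit hF in
theorem cA_add (v w : Fin 3 → F) : D.cA (v + w) = D.cA v + D.cA w := by
  rw [cA, herm_add_left, add_div]; rfl

omit hF in
theorem cA_smul (c : F) (v : Fin 3 → F) : D.cA (c • v) = c * D.cA v := by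
  rw [cA, herm_smul_left, mul_div_assoc]; rfl

omit hF in
theorem cB_add (v w : Fin 3 → F) : D.cB (v + w) = D.cB v + D.cB w := by
  rw [cB, herm_add_left, neg_add, add_div]; rfl

omit hF in
theorem cB_smul (c : F) (v : Fin 3 → F) : D.cB (c • v) = c * D.cB v := by
  rw [cB, herm_smul_left, ← mul_neg, mul_div_assoc]; rfl

theorem fix_one : D.Fix 1 := ⟨1, by simp⟩

omit hF in
theorem fix_mul {g g' : UG 3 F q} (h : D.Fix g) (h' : D.Fix g') : D.Fix (g * g') := by
  obtain ⟨a, ha⟩ := h
  obtain ⟨b, hb⟩ := h'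
  exact ⟨b * a, by rw [Subgroup.coe_mul, LinearEquiv.mul_apply, hb, map_smul, ha, smul_smul]⟩

omit hF in
theorem fix_norm {g : UG 3 F q} {ζ : F} (h : g.1 D.z = ζ • D.z) : ζ * ζ ^ q = 1 := by
  have := UG_app g D.z D.z
  rw [h, herm_smul_left, herm_smul_right, ← mul_assoc] at this
  exact (mul_eq_right₀ D.hz).1 this

omit hF in
theorem fix_ne_zero {g : UG 3 F q} {ζ : F} (h : g.1 D.z = ζ • D.z) : ζ ≠ 0 := by
  intro h0
  have := D.fix_norm h
  rw [h0, zero_mul] at this
  exact zero_ne_one this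

theorem fix_inv {g : UG 3 F q} (h : D.Fix g) : D.Fix g⁻¹ := by
  obtain ⟨a, ha⟩ := h
  refine ⟨a⁻¹, g.1.injective ?_⟩
  rw [← LinearEquiv.mul_apply, ← Subgroup.coe_mul, mul_inv_cancel, map_smul, ha, inv_smul_smul₀
    (D.fix_ne_zero ha)]
  rfl

omit hF in
theorem perp_map {g : UG 3 F q} (h : D.Fix g) {v : Fin 3 → F} (hv : herm q v D.z = 0) :
    herm q (g.1 v) D.z = 0 := by
  obtain ⟨a, ha⟩ := h
  have := UG_app g v D.z
  rw [ha, herm_smul_right, hv] at this
  exact (mul_eq_zero.1 this).resolve_left (pow_ne_zero _ (D.fix_ne_zero ha))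

theorem mat_one : D.mat 1 = 1 := by
  ext i j
  fin_cases i <;> fin_cases j <;>
    simp [mat, cA, cB, D.he, D.hf, D.hef, D.hfe hF, div_self D.hη0]

theorem mat_mul {g g' : UG 3 F q} (h' : D.Fix g') : D.mat (g * g') = D.mat g * D.mat g' := by
  have he' := D.decomp_perp hF (D.perp_map h' D.hez)
  have hf' := D.decomp_perp hF (D.perp_map h' D.hfz)
  have ee : g.1 (g'.1 D.e) = D.cA (g'.1 D.e) • g.1 D.e + D.cB (g'.1 D.e) • g.1 D.f := by
    conv_lhs => rw [he', map_add, map_smul, map_smul]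
  have ef : g.1 (g'.1 D.f) = D.cA (g'.1 D.f) • g.1 D.e + D.cB (g'.1 D.f) • g.1 D.f := by
    conv_lhs => rw [hf', map_add, map_smul, map_smul]
  ext i j
  fin_cases i <;> fin_cases j <;>
    simp [mat, ee, ef, cA_add, cA_smul, cB_add, cB_smul, Matrix.mul_apply, Fin.sum_univ_two] <;>
    ring

theorem rep_unique {g : UG 3 F q} {P P' : PGL(2, R0 hF)} (h : D.Rep hF g P) (h' : D.Rep hF g P') :
    P = P' := by
  obtain ⟨A, a, ha, rfl, hA⟩ := h
  obtain ⟨B, b, hb, rfl, hB⟩ := h'
  have e : ∀ i j, a * ((A : Matrix (Fin 2) (Fin 2) (R0 hF)) i j : F) =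
      b * ((B : Matrix (Fin 2) (Fin 2) (R0 hF)) i j : F) := fun i j => by
    have := congrFun (congrFun (hA.symm.trans hB) i) j
    simpa using this
  obtain ⟨i, j, hij⟩ : ∃ i j, (A : Matrix (Fin 2) (Fin 2) (R0 hF)) i j ≠ 0 := by
    by_contra hcon
    push Not at hcon
    exact A.det_ne_zero (by simp [Matrix.det_fin_two, hcon])
  have hBij : ((B : Matrix (Fin 2) (Fin 2) (R0 hF)) i j : F) ≠ 0 := by
    intro h0
    have := e i j
    rw [h0, mul_zero] at this
    exact hij (Subtype.ext ((mul_eq_zero.1 this).resolve_left ha))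
  set c : R0 hF := (B : Matrix (Fin 2) (Fin 2) (R0 hF)) i j / (A : Matrix (Fin 2) (Fin 2) (R0 hF)) i j
  have hc : (c : F) = a / b := by
    have h1 := e i j
    have hA0 : ((A : Matrix (Fin 2) (Fin 2) (R0 hF)) i j : F) ≠ 0 := fun h => hij (Subtype.ext h)
    simp only [c, Subfield.coe_div]
    rw [div_eq_div_iff hA0 hb]
    linear_combination -h1
  have hc0 : c ≠ 0 := fun h => by
    rw [h] at hc
    exact div_ne_zero ha hb hc.symm
  refine ProjGenLinGroup.mk_eq_mk_iff.2 ⟨Units.mk0 c hc0, Units.ext ?_⟩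
  ext k l
  rw [Units.val_mul, GeneralLinearGroup.coe_scalar]
  simp [Matrix.mul_apply, Fin.sum_univ_two, Matrix.diagonal]
  have := e k l
  fin_cases l <;> simp at this ⊢ <;> rw [hc] <;> field_simp <;> linear_combination this

theorem rep_one : D.Rep hF 1 1 := by
  refine ⟨1, 1, one_ne_zero, map_one _, ?_⟩
  rw [D.mat_one hF, one_smul, Units.val_one, Matrix.map_one _ rfl rfl]

theorem rep_mul {g g' : UG 3 F q} (h' : D.Fix g') {P P' : PGL(2, R0 hF)} (hP : D.Rep hF g P)
    (hP' : D.Rep hF g' P') : D.Rep hF (g * g') (P * P') := by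
  obtain ⟨A, a, ha, rfl, hA⟩ := hP
  obtain ⟨B, b, hb, rfl, hB⟩ := hP'
  refine ⟨A * B, a * b, mul_ne_zero ha hb, map_mul _ _ _, ?_⟩
  rw [D.mat_mul hF h', hA, hB, Units.val_mul, Matrix.smul_mul, Matrix.mul_smul, smul_smul]
  congr 1
  all_goals exact (Matrix.map_mul (f := (R0 hF).subtype)).symm

theorem exists_rep {g : UG 3 F q} (h : D.Fix g) : ∃ P, D.Rep hF g P := by
  set a := D.cA (g.1 D.e) with hadef
  set b := D.cA (g.1 D.f) with hbdef
  set c := D.cB (g.1 D.e) with hcdef
  set d := D.cB (g.1 D.f) with hddef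
  have he' : g.1 D.e = a • D.e + c • D.f := D.decomp_perp hF (D.perp_map h D.hez)
  have hf' : g.1 D.f = b • D.e + d • D.f := D.decomp_perp hF (D.perp_map h D.hfz)
  have val : ∀ x y x' y' : F, herm q (x • D.e + y • D.f) (x' • D.e + y' • D.f) =
      D.η * (x * y' ^ q - y * x' ^ q) := fun x y x' y' => by
    simp only [herm_add_left, hF.herm_add_right, herm_smul_left, herm_smul_right, D.he, D.hf, D.hef,
      D.hfe hF]
    ring
  have E1 : a * c ^ q - c * a ^ q = 0 := by
    have := UG_app g D.e D.e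
    rw [he', val, D.he] at this
    exact (mul_eq_zero.1 this).resolve_left D.hη0
  have E2 : b * d ^ q - d * b ^ q = 0 := by
    have := UG_app g D.f D.f
    rw [hf', val, D.hf] at this
    exact (mul_eq_zero.1 this).resolve_left D.hη0
  have E3 : a * d ^ q - c * b ^ q = 1 := by
    have := UG_app g D.e D.f
    rw [he', hf', val, D.hef] at this
    exact (mul_eq_left₀ D.hη0).1 this
  have E4 : d * a ^ q - b * c ^ q = 1 := by
    have := congrArg (· ^ q) E3
    simpa [hF.sub_pow, mul_pow, hF.pow_pow, mul_comm] using this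
  set δ := a * d - b * c with hδ
  have hδ0 : δ ≠ 0 := by
    intro h0
    have h1 : a = δ * a ^ q := by linear_combination (-(a : F)) * E4 - b * E1
    have h2 : c = δ * c ^ q := by linear_combination (-(c : F)) * E4 - d * E1
    rw [h0, zero_mul] at h1 h2
    rw [h1, h2, zero_mul, zero_mul, sub_zero] at E3
    exact zero_ne_one E3
  have hconj : ∀ i j, D.mat g i j = δ * D.mat g i j ^ q := by
    intro i j
    fin_cases i <;> fin_cases j <;> simp only [mat] <;> simp [← hadef, ← hbdef, ← hcdef, ← hddef]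
    · linear_combination (-(a : F)) * E4 - b * E1
    · linear_combination (-(b : F)) * E3 + a * E2
    · linear_combination (-(c : F)) * E4 - d * E1
    · linear_combination (-(d : F)) * E3 + c * E2
  have hdet : (D.mat g).det = δ := by
    rw [Matrix.det_fin_two]
    simp [mat, ← hadef, ← hbdef, ← hcdef, ← hddef, hδ]
  obtain ⟨i, j, hij⟩ : ∃ i j, D.mat g i j ≠ 0 := by
    by_contra hcon
    push Not at hcon
    exact hδ0 (by rw [← hdet]; simp [Matrix.det_fin_two, hcon])
  set lam := D.mat g i j with hlam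
  have hreal : ∀ k l, D.mat g k l / lam ∈ R0 hF := fun k l => by
    show (D.mat g k l / lam) ^ q = D.mat g k l / lam
    conv_rhs => rw [hlam, hconj k l, hconj i j, mul_div_mul_left _ _ hδ0]
    rw [div_pow]
  let A : Matrix (Fin 2) (Fin 2) (R0 hF) := Matrix.of fun k l => ⟨_, hreal k l⟩
  have hmap : lam • A.map Subtype.val = D.mat g := by
    ext k l
    simp [A, mul_div_cancel₀ _ hij]
  have hA : A.det ≠ 0 := by
    intro h0
    apply hδ0
    rw [← hdet, ← hmap, Matrix.det_smul]
    have : (A.map Subtype.val).det = ((A.det : R0 hF) : F) :=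
      (RingHom.map_det (R0 hF).subtype A).symm
    rw [this, h0]
    simp
  exact ⟨_, GeneralLinearGroup.mkOfDetNeZero A hA, lam, hij, rfl, hmap.symm⟩

/-- The image in `PGL(2, q)` of the part of `M` fixing the point. -/
noncomputable def img (M : Subgroup (UG 3 F q)) : Subgroup PGL(2, R0 hF) where
  carrier := {P | ∃ g ∈ M, D.Fix g ∧ D.Rep hF g P}
  one_mem' := ⟨1, one_mem _, D.fix_one hF, D.rep_one hF⟩
  mul_mem' := by
    rintro P P' ⟨g, hg, hgf, hP⟩ ⟨g', hg', hgf', hP'⟩
    exact ⟨g * g', mul_mem hg hg', D.fix_mul hgf hgf', D.rep_mul hF hgf' hP hP'⟩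
  inv_mem' := by
    rintro P ⟨g, hg, hgf, hP⟩
    obtain ⟨P', hP'⟩ := D.exists_rep hF (D.fix_inv hF hgf)
    have := D.rep_mul hF (D.fix_inv hF hgf) hP hP'
    rw [mul_inv_cancel] at this
    rw [show P⁻¹ = P' from inv_eq_of_mul_eq_one_right (D.rep_unique hF this (D.rep_one hF))]
    exact ⟨g⁻¹, inv_mem hg, D.fix_inv hF hgf, hP'⟩

theorem rep_pow {g : UG 3 F q} (h : D.Fix g) {P : PGL(2, R0 hF)} (hP : D.Rep hF g P) (n : ℕ) :
    D.Fix (g ^ n) ∧ D.Rep hF (g ^ n) (P ^ n) := by
  induction n with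
  | zero => simp [D.fix_one hF, D.rep_one hF]
  | succ n ih =>
    rw [pow_succ, pow_succ]
    exact ⟨D.fix_mul ih.1 h, D.rep_mul hF h ih.2 hP⟩

theorem cast_q : (q : F) = 0 := by
  obtain ⟨p, k, hp, hc, hk⟩ := hF.exists_char
  have hk0 : k ≠ 0 := by rintro rfl; have := hF.one_lt; rw [hk, pow_zero] at this; omega
  rw [hk, Nat.cast_pow, CharP.cast_eq_zero, zero_pow hk0]

/-- A unipotent image lifts to a transvection. -/
theorem trv_of_rep {M : Subgroup (UG 3 F q)} {g : UG 3 F q} (hg : g ∈ M) (hgf : D.Fix g)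
    {lam : F} {u w : Fin 3 → F} {a : F} (hu : g.1 u = lam • u)
    (hw : g.1 w = lam • (w + (a * herm q w u) • u)) (hwu : herm q w u ≠ 0) (hc : TrvCond q u a)
    (hsp : ∀ v, ∃ x y s : F, v = x • u + y • w + s • D.z) (hzu : herm q D.z u = 0) :
    trv hF hc ∈ M := by
  obtain ⟨ζ, hζ⟩ := hgf
  have hu0 : herm q u u = 0 := hc.1
  have hl : lam * lam ^ q = 1 := by
    have := UG_app g w u
    rw [hu, hw, herm_smul_left, herm_smul_right, herm_add_left, herm_smul_left, hu0, mul_zero,
      add_zero, ← mul_assoc] at this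
    exact (mul_eq_right₀ hwu).1 this
  have key : ∀ n : ℕ, (g ^ n).1 u = lam ^ n • u ∧ (g ^ n).1 D.z = ζ ^ n • D.z ∧
      (g ^ n).1 w = lam ^ n • (w + ((n : F) * (a * herm q w u)) • u) := by
    intro n
    induction n with
    | zero => simp
    | succ n ih =>
      refine ⟨?_, ?_, ?_⟩ <;> rw [pow_succ', Subgroup.coe_mul, LinearEquiv.mul_apply]
      · rw [ih.1, map_smul, hu, smul_smul, pow_succ]
      · rw [ih.2.1, map_smul, hζ, smul_smul, pow_succ]
      · rw [ih.2.2, map_smul, map_add, map_smul, hu, hw, Nat.cast_succ]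
        match_scalars <;> ring
  obtain ⟨k1, k2, k3⟩ := key (q + 1)
  have hl' : lam ^ (q + 1) = 1 := by rw [pow_succ', hl]
  have hz' : ζ ^ (q + 1) = 1 := by rw [pow_succ', D.fix_norm hζ]
  rw [hl', one_smul] at k1
  rw [hz', one_smul] at k2
  rw [hl', one_smul, Nat.cast_succ, cast_q hF, zero_add, one_mul] at k3
  have e : trv hF hc = g ^ (q + 1) := Subtype.ext (LinearEquiv.ext fun v => by
    obtain ⟨x, y, s, rfl⟩ := hsp v
    rw [trv_apply, map_add, map_add, map_smul, map_smul, map_smul, k1, k2, k3, herm_add_left,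
      herm_add_left, herm_smul_left, herm_smul_left, herm_smul_left, hu0, hzu]
    module)
  rw [e]
  exact pow_mem hg _

/-- If the image contains `PSL(2, q)` the isotropic basis vectors are centres. -/
theorem centres_of_lsub [DecidableEq (R0 hF)] [Fintype (R0 hF)] {M : Subgroup (UG 3 F q)}
    (h : MaxSub.Dickson.lsub (R0 hF) ≤ D.img hF M) :
    D.e ∈ trvCentres hF M ∧ D.f ∈ trvCentres hF M := by
  have lift : ∀ N : Matrix (Fin 2) (Fin 2) (R0 hF), N.det = 1 → ∃ g ∈ M, D.Fix g ∧ ∃ lam : F,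
      D.mat g = lam • N.map Subtype.val := by
    intro N hN
    have hN0 : N.det ≠ 0 := by rw [hN]; exact one_ne_zero
    obtain ⟨g, hg, hgf, A, lam, hlam, hA, hmat⟩ :=
      h ((MaxSub.Dickson.mk_mem_lsub_iff (GeneralLinearGroup.mkOfDetNeZero N hN0)).2
        (by show IsSquare N.det; rw [hN]; exact IsSquare.one))
    obtain ⟨c, hc⟩ := ProjGenLinGroup.mk_eq_mk_iff.1 hA
    refine ⟨g, hg, hgf, lam / (c : F), ?_⟩
    rw [hmat]
    have hN' : N = (A : Matrix (Fin 2) (Fin 2) (R0 hF)) * Matrix.scalar (Fin 2) (c : R0 hF) := by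
      have := congrArg (Units.val) hc
      rw [Units.val_mul, GeneralLinearGroup.coe_scalar] at this
      exact this.symm
    have hc0 : ((c : R0 hF) : F) ≠ 0 := fun h0 => c.ne_zero (Subtype.ext h0)
    ext i j
    fin_cases i <;> fin_cases j <;>
      simp [hN', Matrix.mul_apply, Fin.sum_univ_two, Matrix.diagonal] <;> field_simp
  have hfe := D.hfe hF
  have sp : ∀ v, ∃ x y s : F, v = x • D.e + y • D.f + s • D.z := fun v => ⟨_, _, _, D.decomp hF v⟩
  constructor
  · refine ⟨D.he, fun a hc => ?_⟩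
    have ht : a * herm q D.f D.e ∈ R0 hF := by
      show (a * herm q D.f D.e) ^ q = a * herm q D.f D.e
      rw [hfe, mul_pow, hc.2, hF.neg_pow, D.hη]; ring
    obtain ⟨g, hg, hgf, lam, hmat⟩ := lift !![1, ⟨_, ht⟩; 0, 1] (by simp [Matrix.det_fin_two])
    have e := fun i j => congrFun (congrFun hmat i) j
    have e00 := e 0 0; have e01 := e 0 1; have e10 := e 1 0; have e11 := e 1 1
    simp [mat] at e00 e01 e10 e11
    refine D.trv_of_rep hF hg hgf (lam := lam) (w := D.f) ?_ ?_ (by rw [hfe]; exact neg_ne_zero.2 D.hη0)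
      hc sp (D.hze hF)
    · rw [D.decomp_perp hF (D.perp_map hgf D.hez), e00, e10, zero_smul, add_zero]
    · rw [D.decomp_perp hF (D.perp_map hgf D.hfz), e01, e11, smul_add, smul_smul, add_comm]
  · refine ⟨D.hf, fun a hc => ?_⟩
    have ht : a * herm q D.e D.f ∈ R0 hF := by
      show (a * herm q D.e D.f) ^ q = a * herm q D.e D.f
      rw [D.hef, mul_pow, hc.2, D.hη]; ring
    obtain ⟨g, hg, hgf, lam, hmat⟩ := lift !![1, 0; ⟨_, ht⟩, 1] (by simp [Matrix.det_fin_two])
    have e := fun i j => congrFun (congrFun hmat i) j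
    have e00 := e 0 0; have e01 := e 0 1; have e10 := e 1 0; have e11 := e 1 1
    simp [mat] at e00 e01 e10 e11
    refine D.trv_of_rep hF hg hgf (lam := lam) (w := D.e) ?_ ?_ (by rw [D.hef]; exact D.hη0)
      hc (fun v => ?_) (D.hzf hF)
    · rw [D.decomp_perp hF (D.perp_map hgf D.hfz), e01, e11, zero_smul, zero_add]
    · rw [D.decomp_perp hF (D.perp_map hgf D.hez), e00, e10, smul_add, smul_smul]
    · obtain ⟨x, y, s, hv⟩ := sp v
      exact ⟨y, x, s, by rw [hv, add_comm (x • D.e)]⟩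

end Pl

end Cfsg.Agent.SUThreeMax
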