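import Cfsg.Agent.SUThreeMax.RealStab
import Cfsg.Agent.GeoClasses.UnitBase
import Cfsg.Agent.MinU.Base

/-!
The cosets of the rational elements: either all elements are rational, or every isotropic line is the
image of a rational one.
-/

set_option autoImplicit false

namespace Cfsg.Agent.SUThreeMax

open Matrix Cfsg.Geo Cfsg.Agent.Classical.U Cfsg.Agent.ClassicalMax Cfsg.Agent.GeoClasses
open scoped MatrixGroups Matrix

/-- A bound on the point stabilisers gives a divisor of the number of moved points. -/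
theorem card_dvd_mul_moved {G X : Type*} [Group G] [MulAction G X] [Finite G] [Finite X] {x0 : X}
    (h0 : ∀ g : G, g • x0 = x0) {k : ℕ}
    (h : ∀ x, x ≠ x0 → Nat.card (MulAction.stabilizer G x) ∣ k) :
    Nat.card G ∣ k * (Nat.card X - 1) := by
  classical
  letI : MulAction G {x : X // x ≠ x0} :=
    { smul := fun g x => ⟨g • x.1, fun e => x.2 (by
        have := congrArg (fun z => g⁻¹ • z) e
        simpa [h0 g⁻¹] using this)⟩
      one_smul := fun x => Subtype.ext (one_smul G x.1)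
      mul_smul := fun a b x => Subtype.ext (mul_smul a b x.1) }
  have hY : Nat.card {x : X // x ≠ x0} = Nat.card X - 1 := by
    haveI := Fintype.ofFinite X
    rw [Nat.card_eq_fintype_card, Nat.card_eq_fintype_card, Fintype.card_subtype_compl,
      Fintype.card_subtype_eq]
  rw [← hY, Nat.card_congr (MulAction.selfEquivSigmaOrbitsQuotientStabilizer G {x : X // x ≠ x0})]
  haveI := Fintype.ofFinite (MulAction.orbitRel.Quotient G {x : X // x ≠ x0})
  rw [Nat.card_sigma, Finset.mul_sum]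
  refine Finset.dvd_sum fun ω _ => ?_
  have e : MulAction.stabilizer G ω.out = MulAction.stabilizer G ω.out.1 :=
    Subgroup.ext fun g => ⟨fun hg => congrArg Subtype.val hg, fun hg => Subtype.ext hg⟩
  have e1 := Subgroup.card_mul_index (MulAction.stabilizer G ω.out)
  rw [← e1]
  exact mul_dvd_mul (by rw [e]; exact h _ ω.out.2) dvd_rfl

/-- The numbers allowed for the cosets. -/
theorem coset_count {q N : ℕ} (hq : 7 ≤ q) (hodd : Odd q) (hN : 1 ≤ N) (h1 : q ∣ N - 1)
    (h2 : q - 1 ∣ 2 * (N - 1)) (h3 : N * (q + 1) ≤ q ^ 3 + 1)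
    (h4 : N ∣ q ^ 3 * (q ^ 2 - 1) * (q ^ 3 + 1)) : N = 1 ∨ N * (q + 1) = q ^ 3 + 1 := by
  obtain ⟨m, rfl⟩ := hodd
  obtain ⟨j, hj⟩ := h1
  have hm : 3 ≤ m := by omega
  rw [show 2 * m + 1 - 1 = 2 * m by omega, hj] at h2
  have h2' : m ∣ (2 * m + 1) * j := Nat.dvd_of_mul_dvd_mul_left two_pos h2
  have hco : Nat.Coprime m (2 * m + 1) := by
    rw [Nat.coprime_mul_right_add_right]; exact Nat.coprime_one_right m
  obtain ⟨i, rfl⟩ := hco.dvd_of_dvd_mul_left h2'
  have hNe : N = (2 * m + 1) * m * i + 1 := by rw [mul_assoc]; omega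
  have hcube : (2 * m + 1) ^ 3 + 1 = ((2 * m + 1) * m * 2 + 1) * (2 * m + 1 + 1) := by ring
  have hi : i ≤ 2 := by
    rw [hcube] at h3
    have h5 := Nat.le_of_mul_le_mul_right h3 (by omega)
    rw [hNe] at h5
    exact Nat.le_of_mul_le_mul_left (Nat.le_of_succ_le_succ h5) (by positivity)
  interval_cases i
  · left; omega
  · exfalso
    rw [mul_one] at hNe
    have hcq : Nat.Coprime N ((2 * m + 1) ^ 3) := by
      refine Nat.Coprime.pow_right 3 ?_
      rw [hNe, mul_comm (2 * m + 1) m, add_comm _ 1, Nat.coprime_add_mul_right_left]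
      exact Nat.coprime_one_left _
    have hc2 : Nat.Coprime N ((2 * m + 1) * m * 2 + 1) := by
      rw [show (2 * m + 1) * m * 2 + 1 = N + (2 * m + 1) * m by omega, Nat.coprime_self_add_right,
        hNe]
      exact Nat.coprime_self_add_left.2 (Nat.coprime_one_left _) 
    rw [hcube, mul_assoc] at h4
    have h5 := hcq.dvd_of_dvd_mul_left h4
    rw [show ((2 * m + 1) ^ 2 - 1) * (((2 * m + 1) * m * 2 + 1) * (2 * m + 1 + 1)) =
      ((2 * m + 1) * m * 2 + 1) * (((2 * m + 1) ^ 2 - 1) * (2 * m + 1 + 1)) by ring] at h5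
    have h6 := hc2.dvd_of_dvd_mul_left h5
    have h7 : ((2 * m + 1) ^ 2 - 1) * (2 * m + 1 + 1) + (2 * m + 6) = N * (4 * m + 6) := by
      rw [show (2 * m + 1) ^ 2 - 1 = 4 * m * (m + 1) by
        rw [show (2 * m + 1) ^ 2 = 4 * m * (m + 1) + 1 by ring, Nat.add_sub_cancel], hNe]
      ring
    have h8 : N ∣ 2 * m + 6 := (Nat.dvd_add_right h6).1 (h7 ▸ dvd_mul_right N _)
    have h9 := Nat.le_of_dvd (by omega) h8
    rw [hNe] at h9
    nlinarith
  · right
    rw [hNe, hcube]

universe u

variable {F : Type u} [Field F] {q : ℕ} {bar : (Fin 3 → F) → (Fin 3 → F)} (hF : SqField F q)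
include hF

omit hF in
theorem card_SUG_three (hF : SqField F q) :
    Nat.card (SUG 3 F q) = q ^ 3 * (q ^ 2 - 1) * (q ^ 3 + 1) := by
  refine Nat.eq_of_mul_eq_mul_left (show 0 < q + 1 by omega) ?_
  rw [card_SUG hF (by norm_num), card_UG hF]
  simp [Finset.prod_range_succ, Nat.even_iff]
  ring

variable (hb : RatStr q 1 bar) (h2 : (2 : F) ≠ 0)
include hb h2

namespace Fr

variable (D : Fr q bar) {M : Subgroup (UG 3 F q)}

/-- A rational isotropic vector for every element of the line and infinity. -/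
noncomputable def vec : Option {γ : F // γ ^ q = γ} → (Fin 3 → F)
  | none => D.e
  | some γ => D.f + γ.1 • D.w + (-(γ.1 * γ.1 * D.c) / 2) • D.e

theorem vec_spec (o : Option {γ : F // γ ^ q = γ}) :
    D.vec o ≠ 0 ∧ herm q (D.vec o) (D.vec o) = 0 ∧ bar (D.vec o) = D.vec o := by
  cases o with
  | none => exact ⟨D.hp.ne_zero, D.hp.1, D.hbe⟩
  | some γ =>
    refine ⟨?_, ?_, ?_⟩
    · rw [vec, ← D.uni_f hF hb (D.real_cond hF hb h2 γ.2)]
      exact fun h => (D.hp.symm hF).ne_zero ((LinearEquiv.map_eq_zero_iff _).1 h)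
    · rw [vec, ← D.uni_f hF hb (D.real_cond hF hb h2 γ.2), UG_app]
      exact D.hp.2.1
    · rw [vec, hb.add, hb.add, hb.smul, hb.smul, D.hbf, D.hbw, D.hbe, γ.2,
        D.real_param hF hb h2 γ.2]

omit h2 in
theorem vec_inj {o o' : Option {γ : F // γ ^ q = γ}} {k : F} (h : D.vec o = k • D.vec o') :
    o = o' := by
  have hk : k = 0 → False := fun h0 => by
    rw [h0, zero_smul] at h
    cases o with
    | none => exact D.hp.ne_zero h
    | some γ =>
      have := congrArg (fun x => herm q x D.e) h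
      simp [vec, herm_add_left, herm_smul_left, herm_zero_left, D.hfe hF hb, D.hwe, D.hp.1] at this
  have e1 := congrArg (fun x => herm q x D.e) h
  have e2 := congrArg (fun x => herm q x D.w) h
  cases o <;> cases o' <;>
    simp [vec, herm_add_left, herm_smul_left, D.hfe hF hb, D.hwe, D.hp.1, D.hew hF hb,
      D.hfw hF hb, D.hc, D.hc0] at e1 e2 ⊢
  · exact hk e1.symm
  · subst e1
    exact Subtype.ext (by simpa [D.hc0] using e2)

variable (hK : ∀ g ∈ SUG 3 F q, Semi bar g → g ∈ M) (hMS : M ≤ SUG 3 F q) (hNR : D.NR hF M)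

/-- The rational root group inside `M`. -/
noncomputable def rootW (M : Subgroup (UG 3 F q)) : Subgroup M where
  carrier := {g | ∃ (γ : F) (hγ : γ ^ q = γ), (g : UG 3 F q) = uni hF (D.real_cond hF hb h2 hγ)}
  one_mem' := by
    refine ⟨0, zero_pow hF.q_ne_zero, ?_⟩
    rw [OneMemClass.coe_one, ← uni_zero hF D.hp.1]
    exact uni_congr hF _ _ rfl (zero_smul F D.w).symm (by simp)
  mul_mem' := by
    rintro g g' ⟨γ, hγ, hg⟩ ⟨γ', hγ', hg'⟩
    refine ⟨γ + γ', by rw [hF.add_pow, hγ, hγ'], ?_⟩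
    rw [Subgroup.coe_mul, hg, hg', uni_mul]
    refine uni_congr hF _ _ rfl (add_smul γ γ' D.w).symm ?_
    rw [herm_smul_left, herm_smul_right, D.hc, hγ]
    field_simp
    ring
  inv_mem' := by
    rintro g ⟨γ, hγ, hg⟩
    refine ⟨-γ, by rw [hF.neg_pow, hγ], ?_⟩
    rw [Subgroup.coe_inv, hg, inv_eq_iff_mul_eq_one, uni_mul, ← uni_zero hF D.hp.1]
    refine uni_congr hF _ _ rfl (by rw [← add_smul, add_neg_cancel, zero_smul]) ?_
    rw [herm_smul_left, herm_smul_right, D.hc, hγ]
    field_simp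
    ring

/-- The split torus inside `M`. -/
def torT (M : Subgroup (UG 3 F q)) : Subgroup M where
  carrier := {g | ∃ l : F, l ≠ 0 ∧ l ^ q = l ∧ (g : UG 3 F q).1 D.e = l • D.e ∧
    (g : UG 3 F q).1 D.f = l⁻¹ • D.f ∧ (g : UG 3 F q).1 D.w = D.w}
  one_mem' := ⟨1, one_ne_zero, one_pow q, by simp, by simp, by simp⟩
  mul_mem' := by
    rintro g g' ⟨a, ha, haq, a1, a2, a3⟩ ⟨b, hb', hbq, b1, b2, b3⟩
    refine ⟨a * b, mul_ne_zero ha hb', by rw [mul_pow, haq, hbq], ?_, ?_, ?_⟩
    · rw [Subgroup.coe_mul, Subgroup.coe_mul, LinearEquiv.mul_apply, b1, map_smul, a1, smul_smul,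
        mul_comm]
    · rw [Subgroup.coe_mul, Subgroup.coe_mul, LinearEquiv.mul_apply, b2, map_smul, a2, smul_smul,
        _root_.mul_inv, mul_comm]
    · rw [Subgroup.coe_mul, Subgroup.coe_mul, LinearEquiv.mul_apply, b3, a3]
  inv_mem' := by
    rintro g ⟨a, ha, haq, a1, a2, a3⟩
    have key : ∀ v w, (g : UG 3 F q).1 v = w → ((g⁻¹ : M) : UG 3 F q).1 w = v := fun v w h => by
      rw [← h]; simp
    refine ⟨a⁻¹, inv_ne_zero ha, by rw [inv_pow, haq], key _ _ ?_, key _ _ ?_, key _ _ a3⟩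
    · rw [map_smul, a1, inv_smul_smul₀ ha]
    · rw [inv_inv, map_smul, a2, smul_inv_smul₀ ha]

theorem torT_ext {g g' : M} {l : F} (h1 : (g : UG 3 F q).1 D.e = l • D.e)
    (h2' : (g : UG 3 F q).1 D.f = l⁻¹ • D.f) (h3 : (g : UG 3 F q).1 D.w = D.w)
    (k1 : (g' : UG 3 F q).1 D.e = l • D.e) (k2 : (g' : UG 3 F q).1 D.f = l⁻¹ • D.f)
    (k3 : (g' : UG 3 F q).1 D.w = D.w) : g = g' :=
  Subtype.ext (Subtype.ext (LinearEquiv.ext fun v => by
    conv_lhs => rw [D.decomp hF hb v]
    conv_rhs => rw [D.decomp hF hb v]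
    simp only [map_add, map_smul, h1, h2', h3, k1, k2, k3]))

include hK

theorem card_rootW : Nat.card (D.rootW hF hb h2 M) = q := by
  haveI : Finite F := hF.1
  have hR : Nat.card {γ : F // γ ^ q = γ} = q := by
    refine Eq.trans ?_ (card_fixed_qConj hF)
    exact (Nat.card_congr (Equiv.subtypeEquivRight fun a => mem_fixed_qConj hF)).symm
  refine (Nat.card_congr (Equiv.ofBijective (fun γ : {γ : F // γ ^ q = γ} =>
    (⟨⟨_, D.real_uni_mem hF hb h2 hK γ.2⟩, γ.1, γ.2, rfl⟩ : D.rootW hF hb h2 M)) ⟨?_, ?_⟩)).symm.trans hR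
  · intro a b hab
    have := congrArg (fun g : D.rootW hF hb h2 M => herm q (((g : M) : UG 3 F q).1 D.f) D.w) hab
    simp only [D.uni_f hF hb, herm_add_left, herm_smul_left, D.hfw hF hb, D.hc, D.hew hF hb] at this
    exact Subtype.ext (mul_right_cancel₀ D.hc0 (by linear_combination this))
  · rintro ⟨g, γ, hγ, hg⟩
    exact ⟨⟨γ, hγ⟩, Subtype.ext (Subtype.ext hg.symm)⟩

theorem card_torT : Nat.card (D.torT M) = q - 1 := by
  haveI : Finite F := hF.1
  set R := RingHom.eqLocusField (qConj hF).toRingHom (RingHom.id F)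
  have hU : Nat.card (Rˣ) = q - 1 := by
    rw [Nat.card_units, card_fixed_qConj hF]
  have hmk : ∀ u : Rˣ, ∃ t : D.torT M, ((t : M) : UG 3 F q).1 D.e = ((u : R) : F) • D.e := by
    intro u
    have hu : ((u : R) : F) ≠ 0 := fun h => u.ne_zero (Subtype.ext h)
    obtain ⟨t, htS, htb, h1, h3, h4⟩ :=
      D.exists_tau hF hb h2 hu ((mem_fixed_qConj hF).1 (u : R).2)
    exact ⟨⟨⟨t, hK t htS (semi_of_barComm htb)⟩, _, hu, (mem_fixed_qConj hF).1 (u : R).2, h1, h3, h4⟩, h1⟩
  choose t ht using hmk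
  refine (Nat.card_congr (Equiv.ofBijective t ⟨fun a b hab => ?_, ?_⟩)).symm.trans hU
  · have := ht a
    rw [hab, ht b] at this
    exact (Units.ext (Subtype.ext (smul_left_injective F D.hp.ne_zero this))).symm
  · rintro ⟨g, l, hl, hlq, h1, h3, h4⟩
    let u : Rˣ := Units.mk0 ⟨l, (mem_fixed_qConj hF).2 hlq⟩ fun h => hl (congrArg Subtype.val h)
    refine ⟨u, Subtype.ext ?_⟩
    obtain ⟨l', hl', -, k1, k3, k4⟩ := (t u).2
    obtain rfl : l' = l := smul_left_injective F D.hp.ne_zero (k1.symm.trans (ht u))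
    exact D.torT_ext hF hb h2 k1 k3 k4 h1 h3 h4

include hNR

omit hNR in
theorem stab_iff {K : Subgroup M} (x : M) (u : K) :
    u • (QuotientGroup.mk x : M ⧸ (semiGroup hF hb).subgroupOf M) = QuotientGroup.mk x ↔
      Semi bar ((x : UG 3 F q)⁻¹ * ((u : M) : UG 3 F q) * (x : UG 3 F q)) := by
  rw [MulAction.compHom_smul_def]
  show (QuotientGroup.mk ((u : M) * x) : M ⧸ (semiGroup hF hb).subgroupOf M) = _ ↔ _
  rw [eq_comm, QuotientGroup.eq, Subgroup.mem_subgroupOf, mul_assoc]
  rfl

theorem base_of_line {x : M} {t : F}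
    (h : bar ((x : UG 3 F q)⁻¹.1 D.e) = t • (x : UG 3 F q)⁻¹.1 D.e) :
    (QuotientGroup.mk x : M ⧸ (semiGroup hF hb).subgroupOf M) = QuotientGroup.mk 1 := by
  rw [QuotientGroup.eq, mul_one, Subgroup.mem_subgroupOf, Subgroup.coe_inv]
  exact D.semi_of_map_real hF hb h2 hK hNR (inv_mem x.2) D.hbe D.hp.1 D.hp.ne_zero h
    (k := 1) (one_smul F _).symm

omit hK hNR in
/-- The eigenvector obtained from a conjugate respecting the involution. -/
theorem eig_of_semi {x u : UG 3 F q} {μ l : F} (hμ : ∀ w, bar ((x⁻¹ * u * x).1 w) =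
    μ • (x⁻¹ * u * x).1 (bar w)) (hlq : l ^ q = l) {v : Fin 3 → F} (huv : u.1 v = l • v) :
    μ • u.1 (x.1 (bar (x⁻¹.1 v))) = l • x.1 (bar (x⁻¹.1 v)) := by
  have h := hμ (x⁻¹.1 v)
  simp only [Subgroup.coe_mul, LinearEquiv.mul_apply] at h
  rw [show x.1 (x⁻¹.1 v) = v by simp, huv, map_smul, hb.smul, hlq] at h
  rw [← map_smul x.1, h, map_smul]
  simp

omit hK hNR in
theorem only_e {z : Fin 3 → F} (h1 : herm q z D.e = 0) (h3 : herm q z D.w = 0) :
    z = herm q z D.f • D.e := by
  conv_lhs => rw [D.decomp hF hb z, h1, h3, zero_div, zero_smul, zero_smul, add_zero, add_zero]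

theorem free_rootW (x : M ⧸ (semiGroup hF hb).subgroupOf M) (hx : x ≠ QuotientGroup.mk 1) :
    Nat.card (MulAction.stabilizer (D.rootW hF hb h2 M) x) ∣ 1 := by
  induction x using QuotientGroup.induction_on with | H x =>
  rw [Nat.dvd_one, Subgroup.card_eq_one, Subgroup.eq_bot_iff_forall]
  intro u hu
  obtain ⟨μ, hμ⟩ := (stab_iff hF hb h2 hK x u).1 hu
  obtain ⟨γ, hγ, hu'⟩ := u.2
  by_contra hne
  have hγ0 : γ ≠ 0 := by
    rintro rfl
    refine hne (Subtype.ext (Subtype.ext ?_))
    rw [hu', OneMemClass.coe_one, OneMemClass.coe_one, ← uni_zero hF D.hp.1]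
    exact uni_congr hF _ _ rfl (zero_smul F D.w) (by simp)
  rw [hu'] at hμ
  have hz := eig_of_semi hF hb h2 hμ (one_pow q) (l := 1)
    (v := D.e) (by rw [D.uni_e hF hb, one_smul])
  set z := (x : UG 3 F q).1 (bar ((x : UG 3 F q)⁻¹.1 D.e)) with hzdef
  rw [one_smul, uni_apply, herm_smul_right, hγ] at hz
  have f1 := congrArg (fun v => herm q v D.e) hz
  have f2 := congrArg (fun v => herm q v D.w) hz
  have f3 := congrArg (fun v => herm q v D.f) hz
  simp only [herm_add_left, herm_smul_left, D.hwe, D.hp.1, D.hc, D.hew hF hb, D.hwf, D.hp.2.2] at f1 f2 f3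
  have hze : herm q z D.e = 0 := by
    by_contra h
    have hμ1 : μ = 1 := mul_right_cancel₀ h (by linear_combination f1)
    rw [hμ1] at f2
    exact mul_ne_zero (mul_ne_zero h hγ0) D.hc0 (by linear_combination f2)
  have hzw : herm q z D.w = 0 := by
    rw [hze] at f2 f3
    by_contra h
    have hμ1 : μ = 1 := mul_right_cancel₀ h (by linear_combination f2)
    rw [hμ1] at f3
    exact mul_ne_zero hγ0 h (by linear_combination -f3)
  have he := D.only_e hF hb h2 hze hzw
  refine hx (D.base_of_line hF hb h2 hK hNR (t := herm q z D.f) ((x : UG 3 F q).1.injective ?_))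
  rw [← hzdef, map_smul]
  simpa using he

theorem stab_torT (x : M ⧸ (semiGroup hF hb).subgroupOf M) (hx : x ≠ QuotientGroup.mk 1) :
    Nat.card (MulAction.stabilizer (D.torT M) x) ∣ 2 := by
  induction x using QuotientGroup.induction_on with | H x =>
  haveI : Finite F := hF.1
  suffices h : ∀ u ∈ MulAction.stabilizer (D.torT M) (QuotientGroup.mk x : M ⧸ (semiGroup hF hb).subgroupOf M),
      ∃ l : F, (l = 1 ∨ l = -1) ∧ ((u : M) : UG 3 F q).1 D.e = l • D.e by
    set S := MulAction.stabilizer (D.torT M) (QuotientGroup.mk x : M ⧸ (semiGroup hF hb).subgroupOf M)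
    choose φ hφ using h
    have hinj : Function.Injective fun u : S => (⟨φ u.1 u.2, (hφ u.1 u.2).1⟩ : {l : F // l = 1 ∨ l = -1}) := by
      intro a b hab
      have hl : φ a.1 a.2 = φ b.1 b.2 := congrArg Subtype.val hab
      obtain ⟨la, -, -, a1, a2, a3⟩ := a.1.2
      obtain ⟨lb, -, -, b1, b2, b3⟩ := b.1.2
      have ea := smul_left_injective F D.hp.ne_zero (a1.symm.trans (hφ a.1 a.2).2)
      have eb := smul_left_injective F D.hp.ne_zero (b1.symm.trans (hφ b.1 b.2).2)
      rw [show lb = la by rw [ea, eb, hl]] at b1 b2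
      exact Subtype.ext (Subtype.ext (D.torT_ext hF hb h2 a1 a2 a3 b1 b2 b3))
    have h1 := Nat.card_le_card_of_injective _ hinj
    have h3 : Nat.card {l : F // l = 1 ∨ l = -1} ≤ 2 := by
      classical
      refine (Nat.card_le_card_of_injective (fun l : {l : F // l = 1 ∨ l = -1} => (⟨l.1, by
        simp only [Finset.mem_insert, Finset.mem_singleton]; exact l.2⟩ : ({1, -1} : Finset F))) fun a b h => Subtype.ext (congrArg (fun z : ({1, -1} : Finset F) => z.1) h)).trans ?_
      rw [Nat.card_eq_fintype_card, Fintype.card_coe]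
      exact Finset.card_le_two
    haveI : Nonempty S := ⟨1⟩
    haveI : Finite S := Finite.of_injective _ hinj
    have h4 : 1 ≤ Nat.card S := Nat.card_pos
    have : Nat.card S = 1 ∨ Nat.card S = 2 := by omega
    rcases this with h | h <;> rw [h]
    exact one_dvd 2
  intro u hu
  obtain ⟨μ, hμ⟩ := (stab_iff hF hb h2 hK x u).1 hu
  obtain ⟨l, hl0, hlq, ue, uf, uw⟩ := u.2
  refine ⟨l, ?_, ue⟩
  by_contra hl
  push Not at hl
  have hll : l ≠ l⁻¹ := fun h => by
    have : (l - 1) * (l + 1) = 0 := by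
      have h' : l * l = 1 := by nth_rw 2 [h]; exact mul_inv_cancel₀ hl0
      linear_combination h'
    rcases mul_eq_zero.1 this with h' | h'
    · exact hl.1 (sub_eq_zero.1 h')
    · exact hl.2 (eq_neg_of_add_eq_zero_left h')
  have coord : ∀ z : Fin 3 → F, herm q (((u : M) : UG 3 F q).1 z) D.e = l⁻¹ * herm q z D.e ∧
      herm q (((u : M) : UG 3 F q).1 z) D.f = l * herm q z D.f ∧
      herm q (((u : M) : UG 3 F q).1 z) D.w = herm q z D.w := by
    intro z
    refine ⟨?_, ?_, ?_⟩
    · have e := UG_app ((u : M) : UG 3 F q) z D.e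
      rw [ue, herm_smul_right, hlq] at e
      rw [← e, inv_mul_cancel_left₀ hl0]
    · have e := UG_app ((u : M) : UG 3 F q) z D.f
      rw [uf, herm_smul_right, inv_pow, hlq] at e
      rw [← e, mul_inv_cancel_left₀ hl0]
    · conv_lhs => arg 3; rw [← uw]
      rw [UG_app]
  have hμ1 : μ = 1 := by
    have hz := eig_of_semi hF hb h2 hμ (one_pow q) (l := 1) (v := D.w) (by rw [uw, one_smul])
    set z := (x : UG 3 F q).1 (bar ((x : UG 3 F q)⁻¹.1 D.w)) with hzdef
    by_contra hμne
    have hzw : herm q z D.w = 0 := by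
      have := congrArg (fun v => herm q v D.w) hz
      simp only [herm_smul_left, (coord z).2.2, one_mul] at this
      by_contra h
      exact hμne (mul_right_cancel₀ h (by linear_combination this))
    have hzz : herm q z z = D.c := by
      rw [hzdef, UG_app, hb.herm_bar, one_mul, UG_app, D.hc, D.hcq hF hb]
    have f1 := congrArg (fun v => herm q v D.e) hz
    have f3 := congrArg (fun v => herm q v D.f) hz
    simp only [herm_smul_left, (coord z).1, (coord z).2.1, one_mul] at f1 f3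
    rcases eq_or_ne (herm q z D.e) 0 with h | h
    · apply D.hc0
      rw [← hzz, D.only_e hF hb h2 h hzw, herm_smul_left, herm_smul_right, D.hp.1, mul_zero, mul_zero]
    · have hμl : μ = l := by
        have : μ * l⁻¹ = 1 := mul_right_cancel₀ h (by linear_combination f1)
        field_simp at this
        exact this
      rw [hμl] at f3
      have hzf : herm q z D.f = 0 := by
        by_contra h'
        refine hll (eq_inv_of_mul_eq_one_left ?_)
        exact mul_right_cancel₀ h' (by linear_combination f3)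
      apply D.hc0
      rw [← hzz, D.decomp hF hb z, hzw, hzf, zero_div, zero_smul, zero_smul, zero_add, add_zero,
        herm_smul_left, herm_smul_right, D.hp.2.1, mul_zero, mul_zero]
  have hz := eig_of_semi hF hb h2 hμ hlq (v := D.e) ue
  set z := (x : UG 3 F q).1 (bar ((x : UG 3 F q)⁻¹.1 D.e)) with hzdef
  rw [hμ1, one_smul] at hz
  have hze : herm q z D.e = 0 := by
    have := congrArg (fun v => herm q v D.e) hz
    simp only [herm_smul_left, (coord z).1] at this
    by_contra h
    exact hll (mul_right_cancel₀ h (by linear_combination -this))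
  have hzw : herm q z D.w = 0 := by
    have := congrArg (fun v => herm q v D.w) hz
    simp only [herm_smul_left, (coord z).2.2] at this
    by_contra h
    exact hl.1 (mul_right_cancel₀ h (by linear_combination -this))
  have he := D.only_e hF hb h2 hze hzw
  refine hx (D.base_of_line hF hb h2 hK hNR (t := herm q z D.f) ((x : UG 3 F q).1.injective ?_))
  rw [← hzdef, map_smul]
  simpa using he

include hMS

/-- Either all of `M` is rational, or it moves the rational isotropic lines onto all of them. -/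
theorem dichotomy (hq : 7 ≤ q) (hodd : Odd q) : (∀ g ∈ M, Semi bar g) ∨
    ∀ v : Fin 3 → F, v ≠ 0 → herm q v v = 0 → ∃ g ∈ M, ∃ (a : Fin 3 → F) (k : F),
      bar a = a ∧ herm q a a = 0 ∧ a ≠ 0 ∧ k ≠ 0 ∧ g.1 a = k • v := by
  classical
  haveI : Finite F := hF.1
  haveI : Finite (UG 3 F q) := by
    haveI : Finite ((Fin 3 → F) ≃ₗ[F] (Fin 3 → F)) :=
      Finite.of_injective (fun g => (g : (Fin 3 → F) → (Fin 3 → F))) DFunLike.coe_injective
    infer_instance
  set X := M ⧸ (semiGroup hF hb).subgroupOf M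
  have hWfix : ∀ u : D.rootW hF hb h2 M,
      u • (QuotientGroup.mk 1 : X) = QuotientGroup.mk 1 := fun u => by
    rw [stab_iff hF hb h2 hK]
    obtain ⟨γ, hγ, hu⟩ := u.2
    rw [OneMemClass.coe_one, hu]
    simpa using semi_of_barComm (D.real_uni_barComm hF hb h2 hγ)
  have hTfix : ∀ u : D.torT M,
      u • (QuotientGroup.mk 1 : X) = QuotientGroup.mk 1 := fun u => by
    rw [stab_iff hF hb h2 hK]
    obtain ⟨l, hl, hlq, ue, uf, uw⟩ := u.2
    simpa using semi_of_barComm (D.barComm_of_vals hF hb ue uf (d := 1) (by rw [one_smul]; exact uw)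
      hlq (by rw [inv_pow, hlq]) (one_pow q))
  have h1 := card_dvd_mul_moved (G := D.rootW hF hb h2 M) hWfix (D.free_rootW hF hb h2 hK hNR)
  have h3 := card_dvd_mul_moved (G := D.torT M) hTfix (D.stab_torT hF hb h2 hK hNR)
  rw [D.card_rootW hF hb h2 hK, one_mul] at h1
  rw [D.card_torT hF hb h2 hK] at h3
  haveI : Finite (Submodule F (Fin 3 → F)) :=
    Finite.of_injective (fun W : Submodule F (Fin 3 → F) => (W : Set (Fin 3 → F))) SetLike.coe_injective
  let Φ : X × Option {γ : F // γ ^ q = γ} → MinU.isoLines 3 F q := fun p =>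
    ⟨Submodule.span F {(p.1.out : UG 3 F q).1 (D.vec p.2)}, _,
      ⟨(fun h => (D.vec_spec hF hb h2 p.2).1 ((LinearEquiv.map_eq_zero_iff _).1 h)),
        (UG_app _ _ _).trans (D.vec_spec hF hb h2 p.2).2.1⟩, rfl⟩
  have hΦ : Function.Injective Φ := by
    rintro ⟨x, o⟩ ⟨y, o'⟩ hxy
    have hmem : (x.out : UG 3 F q).1 (D.vec o) ∈
        Submodule.span F {(y.out : UG 3 F q).1 (D.vec o')} := by
      have := congrArg Subtype.val hxy
      change Submodule.span F {(x.out : UG 3 F q).1 (D.vec o)} = Submodule.span F {(y.out : UG 3 F q).1 (D.vec o')} at this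
      rw [← this]
      exact Submodule.mem_span_singleton_self _
    obtain ⟨k, hk⟩ := Submodule.mem_span_singleton.1 hmem
    obtain ⟨ho0, hoo, hob⟩ := D.vec_spec hF hb h2 o
    have hgab : ((y.out : UG 3 F q)⁻¹ * (x.out : UG 3 F q)).1 (D.vec o) = k • D.vec o' := by
      rw [Subgroup.coe_mul, LinearEquiv.mul_apply, ← hk, map_smul]
      simp
    have hs := D.semi_of_map_real hF hb h2 hK hNR (mul_mem (inv_mem y.out.2) x.out.2) hob hoo ho0
      (t := 1) (by rw [one_smul]; exact (D.vec_spec hF hb h2 o').2.2) hgab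
    obtain rfl : x = y := by
      rw [← QuotientGroup.out_eq' x, ← QuotientGroup.out_eq' y, eq_comm, QuotientGroup.eq,
        Subgroup.mem_subgroupOf]
      exact hs
    rw [inv_mul_cancel, OneMemClass.coe_one, LinearEquiv.coe_one] at hgab
    rw [D.vec_inj hF hb hgab]
  have hR : Nat.card {γ : F // γ ^ q = γ} = q := by
    refine Eq.trans ?_ (card_fixed_qConj hF)
    exact (Nat.card_congr (Equiv.subtypeEquivRight fun a => mem_fixed_qConj hF)).symm
  have hdom : Nat.card (X × Option {γ : F // γ ^ q = γ}) = Nat.card X * (q + 1) := by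
    rw [Nat.card_prod, Finite.card_option, hR]
  have hcod : Nat.card (MinU.isoLines 3 F q) = q ^ 3 + 1 := by
    rw [MinU.card_isoLines hF, MinU.isoN_three]
  have hle := Nat.card_le_card_of_injective Φ hΦ
  rw [hdom, hcod] at hle
  have h4 : Nat.card X ∣ q ^ 3 * (q ^ 2 - 1) * (q ^ 3 + 1) := by
    rw [← card_SUG_three hF]
    exact ((Subgroup.index_dvd_card _).trans (Subgroup.card_dvd_of_le hMS))
  rcases coset_count hq hodd Nat.card_pos h1 h3 hle h4 with hN | hN
  · left
    intro g hg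
    have := (Nat.card_eq_one_iff_unique.1 hN).1.elim (QuotientGroup.mk ⟨g, hg⟩ : X) (QuotientGroup.mk 1)
    rw [eq_comm, QuotientGroup.eq, inv_one, one_mul, Subgroup.mem_subgroupOf] at this
    exact this
  · right
    intro v hv0 hvv
    obtain ⟨⟨x, o⟩, hxo⟩ := (hΦ.bijective_of_nat_card_le (by rw [hdom, hN, hcod])).2
      ⟨Submodule.span F {v}, v, ⟨hv0, hvv⟩, rfl⟩
    have hm : (x.out : UG 3 F q).1 (D.vec o) ∈ Submodule.span F {v} := by
      have := congrArg Subtype.val hxo
      change Submodule.span F {(x.out : UG 3 F q).1 (D.vec o)} = Submodule.span F {v} at this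
      rw [← this]
      exact Submodule.mem_span_singleton_self _
    obtain ⟨k, hk⟩ := Submodule.mem_span_singleton.1 hm
    obtain ⟨ho0, hoo, hob⟩ := D.vec_spec hF hb h2 o
    refine ⟨_, x.out.2, _, k, hob, hoo, ho0, fun h => ho0 ?_, hk.symm⟩
    rw [h, zero_smul, eq_comm, LinearEquiv.map_eq_zero_iff] at hk
    exact hk

end Fr

end Cfsg.Agent.SUThreeMax
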