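import Cfsg.Agent.SUThreeMax.RealCount
import Cfsg.Agent.SUThreeMax.MonHom
import Cfsg.Agent.GeoClasses.UnitRealSubfield

/-!
The subfield groups of index two are maximal in `SU_3(q)` for odd `q` at least seven.
-/

set_option autoImplicit false
set_option maxHeartbeats 1000000
set_option linter.unusedSectionVars false

namespace Cfsg.Agent.SUThreeMax

open Matrix Cfsg.Geo Cfsg.Agent.Classical.U Cfsg.Agent.ClassicalMax Cfsg.Agent.GeoClasses
open scoped MatrixGroups Matrix OnePoint

universe u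

theorem perm4_sign_of_four : ∀ x : Equiv.Perm (Fin 4), x ^ 4 = 1 → x ^ 2 ≠ 1 →
    Equiv.Perm.sign x = -1 := by decide +kernel

/-- An element of order four and an element of order three generate `S₄`. -/
theorem perm4_top {L : Subgroup (Equiv.Perm (Fin 4))} {x y : Equiv.Perm (Fin 4)} (hx : x ∈ L)
    (hy : y ∈ L) (hx4 : orderOf x = 4) (hy3 : orderOf y = 3) : L = ⊤ := by
  have h4 : 4 ∣ Nat.card L := (dvd_of_eq hx4.symm).trans (L.orderOf_dvd_natCard hx)
  have h3 : 3 ∣ Nat.card L := (dvd_of_eq hy3.symm).trans (L.orderOf_dvd_natCard hy)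
  have h12 : 12 ∣ Nat.card L := (show Nat.Coprime 4 3 by norm_num).mul_dvd_of_dvd_of_dvd h4 h3
  have hcard : Nat.card (Equiv.Perm (Fin 4)) = 24 := by
    rw [Nat.card_eq_fintype_card, Fintype.card_perm, Fintype.card_fin]; rfl
  have hmul := L.card_mul_index
  rw [hcard] at hmul
  obtain ⟨t, ht⟩ := h12
  rw [ht] at hmul
  have hidx : L.index = 1 ∨ L.index = 2 := by
    have : L.index ∣ 2 := ⟨t, by rw [mul_assoc] at hmul; rw [mul_comm]; omega⟩
    exact (Nat.dvd_prime Nat.prime_two).1 this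
  rcases hidx with h | h
  · exact Subgroup.index_eq_one.1 h
  exfalso
  rw [Equiv.Perm.eq_alternatingGroup_of_index_eq_two h, Equiv.Perm.mem_alternatingGroup] at hx
  have h2 : x ^ 2 ≠ 1 := fun e => by
    have := orderOf_le_of_pow_eq_one two_pos e; omega
  rw [perm4_sign_of_four x (orderOf_dvd_iff_pow_eq_one.1 (dvd_of_eq hx4)) h2] at hx
  exact absurd hx (by decide)

open Cfsg.Agent.MaxSub.Dickson MulAction in
/-- A subgroup of `PGL(2, q)` with non-commuting elements of the orders of both tori. -/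
theorem lsub_or_s4 {K : Type*} [Field K] [Fintype K] [DecidableEq K] {H : Subgroup PGL(2, K)}
    {a b : PGL(2, K)} (ha : a ∈ H) (hb : b ∈ H) (hq : 7 ≤ Fintype.card K)
    (hoa : 2 * orderOf a = Fintype.card K + 1) (hob : 2 * orderOf b = Fintype.card K - 1)
    (hfix : ∀ x : OnePoint K, a • x ≠ x) (hc : ¬ Commute a b) :
    lsub K ≤ H ∨ (orderOf a = 4 ∧ orderOf b = 3 ∧ Nonempty (H ≃* Equiv.Perm (Fin 4))) := by
  classical
  obtain ⟨f, hp, hqp⟩ := FiniteField.card K (ringChar K)
  haveI : Fact (ringChar K).Prime := ⟨hp⟩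
  haveI : CharP K (ringChar K) := ringChar.charP K
  haveI : CharP (AlgebraicClosure K) (ringChar K) :=
    charP_of_injective_algebraMap (algebraMap K (AlgebraicClosure K)).injective _
  have hbig : ∀ {G : Type} [Group G] (e : H ≃* G),
      ∃ x y : G, orderOf x = orderOf a ∧ orderOf y = orderOf b ∧ (Commute x y → Commute a b) := by
    intro G _ e
    refine ⟨e ⟨a, ha⟩, e ⟨b, hb⟩, by rw [MulEquiv.orderOf_eq, Subgroup.orderOf_mk],
      by rw [MulEquiv.orderOf_eq, Subgroup.orderOf_mk], fun h => ?_⟩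
    have := (h.map e.symm.toMonoidHom).map H.subtype
    simpa using this
  have hord : ∀ {G : Type} [Group G] {x : G} {n m : ℕ}, x ^ n = 1 → 0 < n → orderOf x = m →
      m ∣ n ∧ m ≤ n := by
    intro G _ x n m hx hn he
    exact ⟨he ▸ orderOf_dvd_of_pow_eq_one hx, he ▸ orderOf_le_of_pow_eq_one hn hx⟩
  rcases classifyF (K := AlgebraicClosure K) (p := ringChar K) H with
    ⟨_, _, _, -, hcyc, -, -, -⟩ | ⟨_, _, _, n, -, -, hn, -, -, -, ⟨e⟩⟩ | ⟨x, hx, -⟩ |
    ⟨-, -, ⟨e⟩⟩ | ⟨-, -, ⟨e⟩⟩ | ⟨-, -, ⟨e⟩⟩ | ⟨F₀, h, h4, he⟩ | ⟨F₀, h, h4, -, he⟩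
  · letI := hcyc.commGroup
    exact absurd ((Commute.all (⟨a, ha⟩ : H) ⟨b, hb⟩).map H.subtype) hc
  · haveI : NeZero n := ⟨by omega⟩
    obtain ⟨x, y, hx, hy, h1⟩ := hbig e
    exact absurd (h1 (dihedral_long_commute x y (by omega) (by omega))) hc
  · exact absurd (hx a ha) (hfix x)
  · obtain ⟨x, y, hx, -, -⟩ := hbig e
    exfalso
    rcases alt4_orders x with h | h <;> have := (hord h (by norm_num) hx).2 <;> omega
  · obtain ⟨x, y, hx, hy, -⟩ := hbig e
    have h4 : orderOf a ≤ 4 := by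
      rcases perm4_orders x with h | h | h <;> have := (hord h (by norm_num) hx).2 <;> omega
    exact Or.inr ⟨by omega, by omega, ⟨e⟩⟩
  · obtain ⟨x, y, hx, hy, -⟩ := hbig e
    exfalso
    rcases alt5_orders x with h | h | h <;> obtain ⟨hd, hd'⟩ := hord h (by norm_num) hx
    · omega
    · omega
    · have h5 : orderOf a = 5 := ((Nat.dvd_prime (by norm_num)).1 hd).resolve_left (by omega)
      rcases alt5_orders y with h' | h' | h' <;> obtain ⟨he, he'⟩ := hord h' (by norm_num) hy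
      · omega
      · omega
      · rcases (Nat.dvd_prime (by norm_num)).1 he with h6 | h6 <;> omega
  all_goals
    left
    have hsmall : F₀ = ⊤ := by
      by_contra hne
      have hsub : ∃ g : PGL(2, F₀), orderOf g = orderOf a := by
        have hm : MulAut.conj h⁻¹ a ∈ (subPGL F₀).range := by
          have hm0 := Subgroup.mem_map_of_mem (MulAut.conj h⁻¹).toMonoidHom ha
          rw [he] at hm0
          first
            | exact hm0
            | exact subPSL_le_subPGL F₀ hm0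
        obtain ⟨g, hg⟩ := hm
        exact ⟨g, by rw [← orderOf_injective _ (subPGL_injective F₀), hg, MulEquiv.orderOf_eq]⟩
      obtain ⟨g, hg⟩ := hsub
      haveI : Fintype F₀ := Fintype.ofFinite _
      have h1 := orderOf_le_card_add_one g
      rw [hg, ← Nat.card_eq_fintype_card] at h1
      obtain ⟨r, hr1, hr⟩ := card_subfield_pow F₀
      rcases Nat.lt_or_ge r 2 with hr2 | hr2
      · rw [show r = 1 by omega, pow_one] at hr
        exact hne ((subfield_eq_top_iff F₀).2 hr.symm)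
      · have h5 : Nat.card F₀ * Nat.card F₀ ≤ Fintype.card K := by
          rw [hr, ← sq]; exact Nat.pow_le_pow_right (by omega) hr2
        have h6 : 4 * Nat.card F₀ ≤ Nat.card F₀ * Nat.card F₀ := Nat.mul_le_mul_right _ h4
        omega
    subst hsmall
    have hcard : Nat.card ((⊤ : Subfield K)) = Fintype.card K := (subfield_eq_top_iff ⊤).1 rfl
    intro g hg
    have hn' := (lsub_normal (F := K)).conj_mem g hg h⁻¹
  · have hall : (subPGL (⊤ : Subfield K)).range = ⊤ := Subgroup.eq_top_of_card_eq _ (by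
      rw [card_subPGL_range, card_pgl, hcard])
    obtain ⟨k, hk', hk''⟩ : h⁻¹ * g * h⁻¹⁻¹ ∈ H.map (MulAut.conj h⁻¹).toMonoidHom := by
      rw [he, hall]; trivial
    rwa [show g = k from ((MulAut.conj h⁻¹).injective hk'').symm]
  · have hall : lsub K ≤ (subPSL (⊤ : Subfield K)).range := by
      refine (Subgroup.eq_of_le_of_card_ge (subPSL_le_lsub ⊤) ?_).ge
      have h1 := card_subPSL_range (⊤ : Subfield K)
      have h2' := card_lsub_mul (F := K)
      rw [hcard] at h1
      exact (Nat.eq_of_mul_eq_mul_left (Nat.gcd_pos_of_pos_left _ (by norm_num))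
        (h2'.trans h1.symm)).le
    obtain ⟨k, hk', hk''⟩ : h⁻¹ * g * h⁻¹⁻¹ ∈ H.map (MulAut.conj h⁻¹).toMonoidHom := by
      rw [he]; exact hall hn'
    rwa [show g = k from ((MulAut.conj h⁻¹).injective hk'').symm]

variable {F : Type u} [Field F] {q : ℕ} (hF : SqField F q)
include hF

/-- The image of an element with a basis of eigenvectors. -/
theorem Pl.order_of_eigen (P : Pl q F) {g : UG 3 F q} (hg : P.Fix g) {G : PGL(2, R0 hF)}
    (hG : P.Rep hF g G) {a b : Fin 3 → F} {A B : F} (ha : g.1 a = A • a) (hb : g.1 b = B • b)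
    (hA : A ≠ 0) (hB : B ≠ 0) (ha0 : a ≠ 0) (hb0 : b ≠ 0) (haz : herm q a P.z = 0)
    (hbz : herm q b P.z = 0)
    (hsp : ∀ v, herm q v P.z = 0 → ∃ α β : F, v = α • a + β • b) :
    orderOf G = orderOf (A / B) := by
  refine orderOf_eq_orderOf_iff.2 fun n => ?_
  rw [div_pow, div_eq_one_iff_eq (pow_ne_zero _ hB)]
  obtain ⟨hfn, hrn⟩ := P.rep_pow hF hg hG n
  have key : ∀ (x : Fin 3 → F) (X : F), g.1 x = X • x → (g ^ n).1 x = X ^ n • x := by
    intro x X hx
    clear hfn hrn
    induction n with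
    | zero => simp
    | succ n ih => rw [pow_succ', Subgroup.coe_mul, LinearEquiv.mul_apply, ih, map_smul, hx,
        smul_smul, pow_succ]
  constructor
  · intro h
    rw [h] at hrn
    obtain ⟨lam, hl⟩ := P.scalar_of_rep_one hF hfn hrn
    have e1 := smul_left_injective F ha0 ((key a A ha).symm.trans (hl a haz))
    have e2 := smul_left_injective F hb0 ((key b B hb).symm.trans (hl b hbz))
    rw [e1, e2]
  · intro h
    refine P.rep_unique hF hrn (P.rep_one_of_scalar hF (pow_ne_zero n hA) fun v hv => ?_)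
    obtain ⟨α, β, rfl⟩ := hsp v hv
    rw [map_add, map_smul, map_smul, key a A ha, key b B hb, h]
    module

variable {bar : (Fin 3 → F) → (Fin 3 → F)} (hb : RatStr q 1 bar) (h2 : (2 : F) ≠ 0)
include hb h2

namespace Fr

variable (D : Fr q bar) {M : Subgroup (UG 3 F q)}
  (hK : ∀ g ∈ SUG 3 F q, Semi bar g → g ∈ M) (hNR : D.NR hF M)
include hK hNR

/-- An element carrying the rational frame to a given isotropic vector and orthogonal point. -/
theorem exists_adapted
    (hfull : ∀ v : Fin 3 → F, v ≠ 0 → herm q v v = 0 → ∃ g ∈ M, ∃ (a : Fin 3 → F) (k : F),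
      bar a = a ∧ herm q a a = 0 ∧ a ≠ 0 ∧ k ≠ 0 ∧ g.1 a = k • v)
    {z v : Fin 3 → F} (hz : bar z = z) (hzz : herm q z z ≠ 0) (hv0 : v ≠ 0) (hvv : herm q v v = 0)
    (hvz : herm q v z = 0) :
    ∃ g ∈ M, ∃ k m : F, k ≠ 0 ∧ m ≠ 0 ∧ g.1 D.e = k • v ∧ g.1 D.w = m • z := by
  obtain ⟨g0, hg0, a, k0, hab, haa, ha0, hk0, hga⟩ := hfull v hv0 hvv
  obtain ⟨h1, h1S, h1b, k1, hk1⟩ := D.exists_map_e hF hb h2 hab haa
  have hk10 : k1 ≠ 0 := fun h => ha0 (by rw [hk1, h, zero_smul])
  obtain ⟨g, hgdef⟩ : ∃ g, g = g0 * h1 := ⟨_, rfl⟩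
  have hgM : g ∈ M := hgdef ▸ mul_mem hg0 (hK _ h1S (semi_of_barComm h1b))
  have hge : g.1 D.e = (k1⁻¹ * k0) • v := by
    rw [hgdef, Subgroup.coe_mul, LinearEquiv.mul_apply,
      show h1.1 D.e = k1⁻¹ • a by rw [hk1, inv_smul_smul₀ hk10], map_smul, hga, smul_smul]
  obtain ⟨t, htS, htb, ht⟩ := exists_invol_at hF hb h2 hz hzz
  have hue : (g⁻¹ * t * g).1 D.e = (-1 : F) • D.e := by
    rw [Subgroup.coe_mul, Subgroup.coe_mul, LinearEquiv.mul_apply, LinearEquiv.mul_apply, hge, ht,
      herm_smul_left, hvz]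
    simp [← hge]
  obtain ⟨μ, hμ⟩ := D.semi_of_fix_line hF hb h2 hK hNR
    (mul_mem (mul_mem (inv_mem hgM) (hK t htS (semi_of_barComm htb))) hgM) hue
  have hμ1 : μ = 1 := by
    have h := hμ D.e
    rw [hue, hb.smul, D.hbe, hF.neg_pow, one_pow, hue, smul_smul] at h
    have := smul_left_injective F D.hp.ne_zero h
    linear_combination this
  set z' := g⁻¹.1 z with hz'
  have hgz' : g.1 z' = z := by rw [hz']; simp
  have huz : (g⁻¹ * t * g).1 z' = z' := by
    rw [Subgroup.coe_mul, Subgroup.coe_mul, LinearEquiv.mul_apply, LinearEquiv.mul_apply, hgz', ht,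
      mul_div_assoc, div_self hzz, mul_one]
    rw [show (2 : F) • z - z = z by module]
  have hbz' : bar z' = (herm q (g.1 (bar z')) z / herm q z z) • z' := by
    have h := congrArg g.1 (hμ z')
    rw [huz, hμ1, one_smul, Subgroup.coe_mul, Subgroup.coe_mul, LinearEquiv.mul_apply,
      LinearEquiv.mul_apply, show g.1 (g⁻¹.1 (t.1 (g.1 (bar z')))) = t.1 (g.1 (bar z')) by simp,
      ht] at h
    refine g.1.injective ?_
    rw [map_smul, hgz']
    refine smul_right_injective _ h2 ?_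
    show (2 : F) • g.1 (bar z') = (2 : F) • _
    calc (2 : F) • g.1 (bar z') = g.1 (bar z') + g.1 (bar z') := by rw [two_smul]
      _ = (2 * herm q (g.1 (bar z')) z / herm q z z) • z := by nth_rw 1 [h]; abel
      _ = _ := by rw [smul_smul, mul_div_assoc]
  obtain ⟨j, hj0, hj⟩ := real_multiple hF hb hbz'
  set r := j • z' with hr
  have hre : herm q r D.e = 0 := by
    rw [hr, herm_smul_left, ← UG_app g z' D.e, hgz', hge, herm_smul_right, ← hF.herm_symm v z, hvz,
      zero_pow hF.q_ne_zero, mul_zero, mul_zero]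
  set κ := herm q r D.f with hκ
  set η := herm q r D.w / D.c with hη
  have hκq : κ ^ q = κ := herm_fix_real hF hb hj D.hbf
  have hηq : η ^ q = η := by rw [hη, div_pow, D.hcq hF hb, herm_fix_real hF hb hj D.hbw]
  have hrd : r = κ • D.e + η • D.w := by
    rw [D.decomp hF hb r, hre, zero_smul, add_zero]
  have hη0 : η ≠ 0 := by
    intro h0
    have : herm q r r ≠ 0 := by
      rw [hr, herm_smul_left, herm_smul_right, ← UG_app g z' z', hgz']
      exact mul_ne_zero hj0 (mul_ne_zero (pow_ne_zero _ hj0) hzz)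
    refine this ?_
    rw [hrd, h0, zero_smul, add_zero, herm_smul_left, herm_smul_right, D.hp.1, mul_zero, mul_zero]
  have hγ : (-κ / (η * D.c)) ^ q = -κ / (η * D.c) := by
    rw [div_pow, hF.neg_pow, hκq, mul_pow, hηq, D.hcq hF hb]
  refine ⟨g * uni hF (D.real_cond hF hb h2 hγ), mul_mem hgM (D.real_uni_mem hF hb h2 hK hγ), _,
    η⁻¹ * j, mul_ne_zero (inv_ne_zero hk10) hk0, mul_ne_zero (inv_ne_zero hη0) hj0, ?_, ?_⟩
  · rw [Subgroup.coe_mul, LinearEquiv.mul_apply, D.uni_e hF hb, hge]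
  · have hc0 := D.hc0
    rw [Subgroup.coe_mul, LinearEquiv.mul_apply, D.uni_w hF hb, hγ,
      show D.w - (-κ / (η * D.c) * D.c) • D.e = η⁻¹ • r by
        rw [hrd]; match_scalars <;> field_simp <;> ring,
      hr, map_smul, map_smul, hgz', smul_smul]

/-- The isotropic lines are not all images of the rational ones. -/
theorem not_full (hq : 7 ≤ q) (hodd : Odd q) (hMS : M ≤ SUG 3 F q)
    (hfull : ∀ v : Fin 3 → F, v ≠ 0 → herm q v v = 0 → ∃ g ∈ M, ∃ (a : Fin 3 → F) (k : F),
      bar a = a ∧ herm q a a = 0 ∧ a ≠ 0 ∧ k ≠ 0 ∧ g.1 a = k • v) : False := by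
  classical
  haveI : Finite F := hF.1
  obtain ⟨m0, hm0⟩ := hodd
  obtain ⟨s, hs0, hs⟩ := hF.exists_skew
  set ρ := s * s * D.c / 2 with hρ
  have h22 : (2 : F) ^ q = 2 := by rw [show (2 : F) = 1 + 1 by norm_num, hF.add_pow, one_pow]
  have hρq : ρ ^ q = ρ := by rw [hρ, div_pow, mul_pow, mul_pow, hs, D.hcq hF hb, h22, neg_mul_neg]
  have hρ0 : ρ ≠ 0 := div_ne_zero (mul_ne_zero (mul_ne_zero hs0 hs0) D.hc0) h2
  set y0 := D.e + s • D.w - ρ • D.f with hy0
  set y1 := D.e - s • D.w - ρ • D.f with hy1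
  set z := D.e + ρ • D.f with hz
  have hby0 : bar y0 = y1 := by
    rw [hy0, hy1, RatStr.map_sub' hF hb, hb.add, hb.smul, hb.smul, D.hbe, D.hbw, D.hbf, hs, hρq,
      neg_smul, sub_eq_add_neg D.e]
  have hbz : bar z = z := by rw [hz, hb.add, hb.smul, D.hbe, D.hbf, hρq]
  have hee := D.hp.1
  have hff := D.hp.2.1
  have hef := D.hp.2.2
  have hev : ∀ (a b c a' b' c' : F),
      herm q (a • D.e + b • D.w + c • D.f) (a' • D.e + b' • D.w + c' • D.f) =
        a * c' ^ q + c * a' ^ q + b * b' ^ q * D.c := fun a b c a' b' c' => by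
    simp only [herm_add_left, hF.herm_add_right, herm_smul_left, herm_smul_right, hee, hff, hef,
      D.hfe hF hb, D.hwe, D.hwf, D.hew hF hb, D.hfw hF hb, D.hc]
    ring
  have ey0 : y0 = (1 : F) • D.e + s • D.w + (-ρ) • D.f := by rw [hy0]; module
  have ey1 : y1 = (1 : F) • D.e + (-s) • D.w + (-ρ) • D.f := by rw [hy1]; module
  have ez : z = (1 : F) • D.e + (0 : F) • D.w + ρ • D.f := by rw [hz]; module
  have h00 : herm q y0 y0 = -(4 * ρ) := by
    rw [ey0, hev, hF.neg_pow, hρq, hs, one_pow, hρ]; field_simp; ring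
  have h01 : herm q y0 y1 = 0 := by
    rw [ey0, ey1, hev, hF.neg_pow, hF.neg_pow, hρq, hs, one_pow, hρ]; field_simp; ring
  have h11 : herm q y1 y1 = -(4 * ρ) := by
    rw [ey1, hev, hF.neg_pow, hF.neg_pow, hρq, hs, one_pow, hρ]; field_simp; ring
  have hy0z : herm q y0 z = 0 := by
    rw [ey0, ez, hev, zero_pow hF.q_ne_zero, hρq, one_pow]; ring
  have hy1z : herm q y1 z = 0 := by
    rw [ey1, ez, hev, zero_pow hF.q_ne_zero, hρq, one_pow]; ring
  have hzz : herm q z z ≠ 0 := by
    rw [ez, hev, zero_pow hF.q_ne_zero, hρq, one_pow]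
    intro h
    exact mul_ne_zero h2 hρ0 (by linear_combination h)
  have h4 : (-(4 * ρ)) ≠ 0 :=
    neg_ne_zero.2 (mul_ne_zero (by rw [show (4 : F) = 2 * 2 by norm_num]; exact mul_ne_zero h2 h2) hρ0)
  obtain ⟨k, hk⟩ := hF.exists_norm (c := (-(4 * ρ))⁻¹) (by rw [inv_pow, hF.neg_pow, mul_pow,
    show (4 : F) = 2 * 2 by norm_num, mul_pow, h22, hρq])
  have hkk : k * k ^ q * (-(4 * ρ)) = 1 := by rw [← pow_succ', hk, inv_mul_cancel₀ h4]
  set y := k • y0 with hy
  set yb := k ^ q • y1 with hyb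
  have hbary : bar y = yb := by rw [hy, hyb, hb.smul, hby0]
  have hbaryb : bar yb = y := by rw [← hbary, hb.invol]
  have hyy : herm q y y = 1 := by rw [hy, herm_smul_left, herm_smul_right, h00, ← mul_assoc, hkk]
  have hybb : herm q yb yb = 1 := by
    rw [hyb, herm_smul_left, herm_smul_right, h11, hF.pow_pow]; linear_combination hkk
  have hyyb : herm q y yb = 0 := by
    rw [hy, hyb, herm_smul_left, herm_smul_right, h01, mul_zero, mul_zero]
  have hyby : herm q yb y = 0 := by rw [← hF.herm_symm, hyyb, zero_pow hF.q_ne_zero]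
  have hyz : herm q y z = 0 := by rw [hy, herm_smul_left, hy0z, mul_zero]
  have hybz : herm q yb z = 0 := by rw [hyb, herm_smul_left, hy1z, mul_zero]
  have hzy : herm q z y = 0 := by rw [← hF.herm_symm, hyz, zero_pow hF.q_ne_zero]
  have hzyb : herm q z yb = 0 := by rw [← hF.herm_symm, hybz, zero_pow hF.q_ne_zero]
  clear_value y yb z
  have hk0 : k ≠ 0 := fun h => by rw [h, zero_mul, zero_mul] at hkk; exact zero_ne_one hkk
  have span : ∀ v, herm q v z = 0 → v = herm q v y • y + herm q v yb • yb := by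
    intro v hv
    set u := v - herm q v y • y - herm q v yb • yb with hu
    have u1 : herm q u y = 0 := by
      rw [hu, herm_sub_left, herm_sub_left, herm_smul_left, herm_smul_left, hyy, hyby]; ring
    have u2 : herm q u yb = 0 := by
      rw [hu, herm_sub_left, herm_sub_left, herm_smul_left, herm_smul_left, hyyb, hybb]; ring
    have u3 : herm q u z = 0 := by
      rw [hu, herm_sub_left, herm_sub_left, herm_smul_left, herm_smul_left, hv, hyz, hybz]; ring
    rw [hy, herm_smul_right] at u1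
    rw [hyb, herm_smul_right] at u2
    have a1 := (mul_eq_zero.1 u1).resolve_left (pow_ne_zero _ hk0)
    have a2 := (mul_eq_zero.1 u2).resolve_left (pow_ne_zero _ (pow_ne_zero _ hk0))
    rw [ey0] at a1
    rw [ey1] at a2
    rw [ez] at u3
    simp only [hF.herm_add_right, herm_smul_right, one_pow, hF.neg_pow, hρq, hs,
      zero_pow hF.q_ne_zero] at a1 a2 u3
    have e1 : herm q u D.e = 0 :=
      mul_left_cancel₀ (mul_ne_zero h2 h2) (by linear_combination a1 + a2 + 2 * u3)
    have e2 : herm q u D.w = 0 :=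
      mul_left_cancel₀ (mul_ne_zero h2 hs0) (by linear_combination a2 - a1)
    have e3 : herm q u D.f = 0 :=
      mul_left_cancel₀ hρ0 (by linear_combination u3 - e1)
    have hu0 : u = 0 := by
      rw [D.decomp hF hb u, e1, e2, e3, zero_div, zero_smul, zero_smul, zero_smul, add_zero, add_zero]
    rw [hu, sub_sub, sub_eq_zero] at hu0
    exact hu0
  have hy_ne : y ≠ 0 := fun h => by rw [h, herm_zero_left] at hyy; exact zero_ne_one hyy
  have hyb_ne : yb ≠ 0 := fun h => by rw [h, herm_zero_left] at hybb; exact zero_ne_one hybb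
  -- the anisotropic torus
  obtain ⟨gen, hgen⟩ := IsCyclic.exists_ofOrder_eq_natCard (α := Fˣ)
  rw [hF.card_units] at hgen
  have hoμ : orderOf ((gen ^ (q - 1) : Fˣ) : F) = q + 1 := by
    rw [orderOf_units, orderOf_pow, hgen, Nat.gcd_mul_right_left,
      Nat.mul_div_cancel_left _ (by omega)]
  have hol : orderOf ((gen ^ (q + 1) : Fˣ) : F) = q - 1 := by
    rw [orderOf_units, orderOf_pow, hgen, Nat.gcd_mul_left_left,
      Nat.mul_div_cancel _ (by omega)]
  set μ := ((gen ^ (q - 1) : Fˣ) : F) with hμdef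
  set l := ((gen ^ (q + 1) : Fˣ) : F) with hldef
  have hμ : μ * μ ^ q = 1 := by rw [← pow_succ', ← hoμ, pow_orderOf_eq_one]
  have hμ0 : μ ≠ 0 := Units.ne_zero _
  have hl0 : l ≠ 0 := Units.ne_zero _
  have hlq : l ^ q = l := by
    have h1 : l ^ (q - 1) = 1 := by rw [← hol, pow_orderOf_eq_one]
    calc l ^ q = l ^ (q - 1) * l := by rw [← pow_succ, Nat.sub_add_cancel (by omega)]
      _ = l := by rw [h1, one_mul]
  have hμ2 : μ ^ 2 ≠ 1 := fun h => by
    have := orderOf_le_of_pow_eq_one two_pos h; omega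
  have hr1 : (μ - 1) + (μ - 1) ^ q + (μ - 1) * (μ - 1) ^ q * herm q y y = 0 := by
    rw [hyy, hF.sub_pow, one_pow]; linear_combination hμ
  have hr2 : (μ ^ q - 1) + (μ ^ q - 1) ^ q + (μ ^ q - 1) * (μ ^ q - 1) ^ q * herm q yb yb = 0 := by
    rw [hybb, hF.sub_pow, one_pow, hF.pow_pow]; linear_combination hμ
  set R := href hF hr1 * href hF hr2 with hR
  have hRv : ∀ v, R.1 v =
      v + ((μ - 1) * herm q v y) • y + ((μ ^ q - 1) * herm q v yb) • yb := fun v => by
    rw [hR, Subgroup.coe_mul, LinearEquiv.mul_apply, href_apply, href_apply, herm_add_left,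
      herm_smul_left, hyby]
    module
  have hRS : R ∈ SUG 3 F q := by
    rw [mem_SUG, hR, Subgroup.coe_mul, map_mul]
    refine Units.ext ?_
    rw [Units.val_mul, Units.val_one, DecompMax.UN.det_href hF hr1, DecompMax.UN.det_href hF hr2,
      hyy, hybb]
    linear_combination hμ
  have hRb : BarComm bar R := fun v => by
    rw [hRv, hRv, hb.add, hb.add, hb.smul, hb.smul, hbary, hbaryb, RatStr.herm_bar_left hF hb v y,
      RatStr.herm_bar_left hF hb v yb, hbary, hbaryb, mul_pow, mul_pow, hF.sub_pow, hF.sub_pow,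
      one_pow, hF.pow_pow]
    match_scalars <;> ring
  have hRM : R ∈ M := hK R hRS (semi_of_barComm hRb)
  have hRy : R.1 y = μ • y := by rw [hRv, hyy, hyyb]; module
  have hRyb : R.1 yb = μ ^ q • yb := by rw [hRv, hyby, hybb]; module
  have hRz : R.1 z = z := by rw [hRv, hzy, hzyb]; module
  clear_value R
  obtain ⟨P, hPz⟩ := exists_pl hF hzz
  have hPv : P.e ≠ 0 := fun h => P.hη0 (by rw [← P.hef, h, herm_zero_left])
  have hPez : herm q P.e z = 0 := hPz ▸ P.hez
  obtain ⟨g, hg, k', m', hk', hm', hge, hgw⟩ :=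
    D.exists_adapted hF hb h2 hK hNR hfull hbz hzz hPv P.he hPez
  set v := P.e
  set v' := g.1 D.f with hv'
  have hgiw : g⁻¹.1 z = m'⁻¹ • D.w := by
    refine g.1.injective ?_
    rw [map_smul, hgw, inv_smul_smul₀ hm']; simp
  have hv'z : herm q v' z = 0 := by
    rw [hv', show z = m'⁻¹ • g.1 D.w by rw [hgw, inv_smul_smul₀ hm'], herm_smul_right, UG_app,
      D.hfw hF hb, mul_zero]
  have hv'v' : herm q v' v' = 0 := by rw [hv', UG_app, hff]
  have hv'0 : v' ≠ 0 := fun h => (D.hp.symm hF).ne_zero ((LinearEquiv.map_eq_zero_iff g.1).1 h)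
  have hvv' : herm q v v' ≠ 0 := by
    rw [show v = k'⁻¹ • g.1 D.e by rw [hge, inv_smul_smul₀ hk'], hv', herm_smul_left, UG_app, hef,
      mul_one]
    exact inv_ne_zero hk'
  have hsp' : ∀ u, herm q u z = 0 → ∃ α β : F, u = α • v + β • v' := by
    intro u hu
    have h1 : herm q (g⁻¹.1 u) D.w = 0 := by
      rw [← UG_app g, show g.1 (g⁻¹.1 u) = u by simp, hgw, herm_smul_right, hu, mul_zero]
    refine ⟨herm q (g⁻¹.1 u) D.f * k', herm q (g⁻¹.1 u) D.e, ?_⟩
    have hd := congrArg g.1 (D.decomp hF hb (g⁻¹.1 u))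
    rw [h1, zero_div, zero_smul, add_zero, map_add, map_smul, map_smul, hge, smul_smul, ← hv',
      show g.1 (g⁻¹.1 u) = u by simp] at hd
    exact hd
  obtain ⟨t, htS, htb, hte, htf, htw⟩ := D.exists_tau hF hb h2 hl0 hlq
  set T := g * t * g⁻¹ with hT
  have hTM : T ∈ M := mul_mem (mul_mem hg (hK t htS (semi_of_barComm htb))) (inv_mem hg)
  have hTapp : ∀ x, T.1 (g.1 x) = g.1 (t.1 x) := fun x => by
    rw [hT, Subgroup.coe_mul, Subgroup.coe_mul, LinearEquiv.mul_apply, LinearEquiv.mul_apply]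
    simp
  have hTv : T.1 v = l • v := by
    rw [show v = k'⁻¹ • g.1 D.e by rw [hge, inv_smul_smul₀ hk'], map_smul, hTapp, hte, map_smul,
      smul_comm]
  have hTv' : T.1 v' = l⁻¹ • v' := by rw [hv', hTapp, htf, map_smul]
  have hTz : T.1 z = z := by
    rw [show z = m'⁻¹ • g.1 D.w by rw [hgw, inv_smul_smul₀ hm'], map_smul, hTapp, htw]
  clear_value T
  subst hPz
  have hRf : P.Fix R := ⟨1, by rw [one_smul]; exact hRz⟩
  have hTf : P.Fix T := ⟨1, by rw [one_smul]; exact hTz⟩
  obtain ⟨GR, hGR⟩ := P.exists_rep hF hRf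
  obtain ⟨GT, hGT⟩ := P.exists_rep hF hTf
  haveI : Fintype (R0 hF) := Fintype.ofFinite _
  have hcard : Fintype.card (R0 hF) = q := by
    rw [← Nat.card_eq_fintype_card]; exact card_fixed_qConj hF
  have hvne : herm q v v = 0 := P.he
  have oR : 2 * orderOf GR = q + 1 := by
    rw [P.order_of_eigen hF hRf hGR hRy hRyb hμ0 (pow_ne_zero _ hμ0) hy_ne hyb_ne hyz hybz
      (fun u hu => ⟨_, _, span u hu⟩), show μ / μ ^ q = μ ^ 2 by
        rw [eq_inv_of_mul_eq_one_right hμ]; field_simp,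
      orderOf_pow' _ two_ne_zero, hoμ, Nat.gcd_eq_right ⟨m0 + 1, by omega⟩]
    exact Nat.mul_div_cancel' ⟨m0 + 1, by omega⟩
  have oT : 2 * orderOf GT = q - 1 := by
    rw [P.order_of_eigen hF hTf hGT hTv hTv' hl0 (inv_ne_zero hl0) hPv hv'0 hPez hv'z hsp',
      show l / l⁻¹ = l ^ 2 by field_simp,
      orderOf_pow' _ two_ne_zero, hol, Nat.gcd_eq_right ⟨m0, by omega⟩]
    exact Nat.mul_div_cancel' ⟨m0, by omega⟩
  have hno : ∀ u, herm q u P.z = 0 → u ≠ 0 → herm q u u = 0 → ∀ ν : F, R.1 u ≠ ν • u := by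
    intro u hu hu0 huu ν hν
    have hd := span u hu
    set α := herm q u y with hα
    set β := herm q u yb with hβ
    have e1 : μ * α = ν * α := by
      have := congrArg (fun x => herm q x y) hν
      simp only [hRv, herm_add_left, herm_smul_left, hyy, hyby, ← hα] at this
      linear_combination this
    have e2 : μ ^ q * β = ν * β := by
      have := congrArg (fun x => herm q x yb) hν
      simp only [hRv, herm_add_left, herm_smul_left, hybb, hyyb, ← hβ] at this
      linear_combination this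
    rw [hd] at huu
    simp only [herm_add_left, hF.herm_add_right, herm_smul_left, herm_smul_right, hyy, hybb, hyyb,
      hyby] at huu
    rcases eq_or_ne α 0 with ha | ha
    · rw [ha, zero_pow hF.q_ne_zero] at huu
      have : β * β ^ q = 0 := by linear_combination huu
      have hb0 : β = 0 := (mul_eq_zero.1 this).elim id (pow_eq_zero_iff hF.q_ne_zero).1
      exact hu0 (by rw [hd, ha, hb0, zero_smul, zero_smul, add_zero])
    · have hν' : μ = ν := mul_right_cancel₀ ha e1
      rcases eq_or_ne β 0 with hb0 | hb0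
      · rw [hb0, zero_pow hF.q_ne_zero] at huu
        have : α * α ^ q = 0 := by linear_combination huu
        exact ha ((mul_eq_zero.1 this).elim id (pow_eq_zero_iff hF.q_ne_zero).1)
      · have hν2 : μ ^ q = ν := mul_right_cancel₀ hb0 e2
        exact hμ2 (by rw [hν2, ← hν'] at hμ; rw [sq]; exact hμ)
  have hfix := P.no_fixed hF hRf hGR hno
  have hc : ¬ Commute GR GT := by
    intro hcm
    have h12 := P.rep_mul hF hTf hGR hGT
    rw [hcm.eq] at h12
    obtain ⟨lam, hlam⟩ := P.proj_eq hF (P.fix_mul hRf hTf) (P.fix_mul hTf hRf) h12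
      (P.rep_mul hF hRf hGT hGR)
    have key : ∀ (x : Fin 3 → F) (X : F), herm q x P.z = 0 → T.1 x = X • x →
        ∃ α β : F, R.1 x = α • v + β • v' ∧ α * l = lam * X * α ∧ β * l⁻¹ = lam * X * β := by
      intro x X hx hTx
      obtain ⟨α, β, hd⟩ := hsp' (R.1 x) (P.perp_map hRf hx)
      refine ⟨α, β, hd, ?_⟩
      have h := hlam x hx
      rw [Subgroup.coe_mul, Subgroup.coe_mul, LinearEquiv.mul_apply, LinearEquiv.mul_apply, hTx,
        map_smul, hd, map_add, map_smul, map_smul, hTv, hTv'] at h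
      have f1 := congrArg (fun x => herm q x v') h
      have f2 := congrArg (fun x => herm q x v) h
      simp only [herm_add_left, herm_smul_left, hv'v', hvne] at f1 f2
      have hvv2 : herm q v' v ≠ 0 := by rw [← hF.herm_symm]; exact pow_ne_zero _ hvv'
      exact ⟨mul_right_cancel₀ hvv' (by linear_combination f1),
        mul_right_cancel₀ hvv2 (by linear_combination f2)⟩
    obtain ⟨α, β, hd, e1, e2⟩ := key v l hPez hTv
    obtain ⟨α', β', hd', e1', e2'⟩ := key v' l⁻¹ hv'z hTv'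
    have hβ : β ≠ 0 := fun h => hno v hPez hPv hvne α (by rw [hd, h, zero_smul, add_zero])
    have hα' : α' ≠ 0 := fun h => hno v' hv'z hv'0 hv'v' β' (by rw [hd', h, zero_smul, zero_add])
    have l1 : l⁻¹ = lam * l := mul_left_cancel₀ hβ (by linear_combination e2)
    have l2 : l = lam * l⁻¹ := mul_left_cancel₀ hα' (by linear_combination e1')
    have h4 : l ^ 4 = 1 := by
      field_simp at l1 l2
      linear_combination l ^ 2 * l2 - l1
    have := orderOf_le_of_pow_eq_one (by norm_num) h4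
    omega
  rcases lsub_or_s4 (H := P.img hF M) ⟨R, hRM, hRf, hGR⟩ ⟨T, hTM, hTf, hGT⟩ (by rw [hcard]; exact hq)
    (by rw [hcard]; exact oR) (by rw [hcard]; exact oT) hfix hc with h | ⟨ha4, hb3, ⟨e⟩⟩
  · obtain ⟨hcen, -⟩ := P.centres_of_lsub hF h
    have hec : D.e ∈ trvCentres hF M := by
      have hcen' := map_mem_trvCentres hF (smul_mem_trvCentres hF hcen k') (inv_mem hg)
      rw [← hge] at hcen'
      simpa using hcen'
    obtain ⟨d, hd0, hd⟩ := hF.exists_skew
    have hdc : UniCond q D.e ((0 : F) • D.w) d := D.cond hF hb (by rw [hd]; simp)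
    have hdM : uni hF hdc ∈ M := by
      convert hec.2 d ⟨D.hp.1, hd⟩ using 1
      exact uni_congr hF _ _ rfl (zero_smul F D.w) rfl
    have := (hNR _ _ hdc hdM).2
    rw [hd] at this
    exact mul_ne_zero h2 hd0 (by linear_combination -this)
  let M1 : Subgroup (UG 3 F q) :=
    { carrier := {x | x ∈ M ∧ x.1 P.z = P.z}
      one_mem' := ⟨one_mem M, by simp⟩
      mul_mem' := fun {a b} ha hb' => ⟨mul_mem ha.1 hb'.1, by
        rw [Subgroup.coe_mul, LinearEquiv.mul_apply, hb'.2, ha.2]⟩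
      inv_mem' := fun {a} ha => ⟨inv_mem ha.1, by conv_lhs => rw [← ha.2]
                                                  simp⟩ }
  have hle : P.img hF M1 ≤ P.img hF M := fun G ⟨x, hx, hxf, hxG⟩ => ⟨x, hx.1, hxf, hxG⟩
  have htop : P.img hF M ≤ P.img hF M1 := by
    have hL := perm4_top (L := ((P.img hF M1).subgroupOf (P.img hF M)).map e.toMonoidHom)
      (x := e ⟨GR, R, hRM, hRf, hGR⟩) (y := e ⟨GT, T, hTM, hTf, hGT⟩)
      ⟨_, (show GR ∈ P.img hF M1 from ⟨R, ⟨hRM, hRz⟩, hRf, hGR⟩), rfl⟩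
      ⟨_, (show GT ∈ P.img hF M1 from ⟨T, ⟨hTM, hTz⟩, hTf, hGT⟩), rfl⟩
      (by rw [MulEquiv.orderOf_eq, ← Subgroup.orderOf_coe]; exact ha4)
      (by rw [MulEquiv.orderOf_eq, ← Subgroup.orderOf_coe]; exact hb3)
    intro G hG
    obtain ⟨G', hG', hGe⟩ : e ⟨G, hG⟩ ∈ ((P.img hF M1).subgroupOf (P.img hF M)).map e.toMonoidHom := by
      rw [hL]; trivial
    rw [e.injective hGe] at hG'
    exact hG'
  set a := y + yb with ha
  have hba : bar a = a := by rw [ha, hb.add, hbary, hbaryb, add_comm]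
  have haa : herm q a a = 2 := by
    simp only [ha, herm_add_left, hF.herm_add_right, hyy, hybb, hyyb, hyby]; norm_num
  obtain ⟨r, hrS, hrb, hr⟩ := exists_invol_at hF hb h2 hba (by rw [haa]; exact h2)
  have hza : herm q P.z a = 0 := by rw [ha, hF.herm_add_right, hzy, hzyb, add_zero]
  have hrz : r.1 P.z = (-1 : F) • P.z := by rw [hr, hza]; simp
  have hrM := hK r hrS (semi_of_barComm hrb)
  have hrf : P.Fix r := ⟨-1, hrz⟩
  obtain ⟨Gr, hGr⟩ := P.exists_rep hF hrf
  obtain ⟨g1, ⟨hg1M, hg1z⟩, hg1f, hg1G⟩ := htop ⟨r, hrM, hrf, hGr⟩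
  obtain ⟨lam, hlam⟩ := P.proj_eq hF hg1f hrf hg1G hGr
  set kk := g⁻¹ * (g1⁻¹ * r) * g with hkk'
  have hkM : kk ∈ M := mul_mem (mul_mem (inv_mem hg) (mul_mem (inv_mem hg1M) hrM)) hg
  have hmid : ∀ u, herm q u P.z = 0 → (g1⁻¹ * r).1 u = lam • u := fun u hu => by
    rw [Subgroup.coe_mul, LinearEquiv.mul_apply, hlam u hu, map_smul]
    simp
  have hkapp : ∀ x (X : F), (g1⁻¹ * r).1 (g.1 x) = X • g.1 x → kk.1 x = X • x := fun x X h => by
    rw [hkk', Subgroup.coe_mul, Subgroup.coe_mul _ g⁻¹, LinearEquiv.mul_apply, LinearEquiv.mul_apply,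
      h, map_smul]
    simp
  have hke : kk.1 D.e = lam • D.e := hkapp _ _ (by
    rw [hge, map_smul, hmid v hPez, smul_comm])
  have hkf : kk.1 D.f = lam • D.f := hkapp _ _ (hmid v' hv'z)
  have hkw : kk.1 D.w = (-1 : F) • D.w := hkapp _ _ (by
    rw [hgw, map_smul, Subgroup.coe_mul, LinearEquiv.mul_apply, hrz, map_smul,
      show g1⁻¹.1 P.z = P.z by conv_lhs => rw [← hg1z]
                               simp, smul_comm])
  have hlam1 : lam * lam ^ q = 1 := by
    have := UG_app kk D.e D.f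
    rw [hke, hkf, herm_smul_left, herm_smul_right, hef, mul_one] at this
    exact this
  obtain ⟨ν, hν⟩ := D.semi_of_fix_line hF hb h2 hK hNR hkM hke
  have hν1 : ν = 1 := by
    have h := hν D.w
    rw [D.hbw, hkw, hb.smul, D.hbw, hF.neg_pow, one_pow, smul_smul] at h
    have := smul_left_injective F (D.w_ne hF hb) h
    linear_combination this
  have hlamq : lam ^ q = lam := by
    have h := hν D.e
    rw [D.hbe, hke, hb.smul, D.hbe, hν1, one_smul] at h
    exact smul_left_injective F D.hp.ne_zero h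
  rw [hlamq] at hlam1
  have hlin : (kk.1 : (Fin 3 → F) →ₗ[F] (Fin 3 → F)) =
      lam • hrefLin q ((-lam - 1) / D.c) D.w := by
    refine LinearMap.ext fun x => ?_
    rw [LinearMap.smul_apply, hrefLin_apply, LinearEquiv.coe_coe]
    have hc0 := D.hc0
    conv_lhs => rw [D.decomp hF hb x, map_add, map_add, map_smul, map_smul, map_smul, hke, hkf, hkw]
    conv_rhs => arg 2; arg 1; rw [D.decomp hF hb x]
    match_scalars
    all_goals first
      | linear_combination (herm q x D.w * D.c⁻¹) * hlam1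
      | linear_combination -(herm q x D.w * D.c⁻¹) * hlam1
      | ring
      | (field_simp; linear_combination (herm q x D.w) * hlam1)
      | (field_simp; linear_combination -(herm q x D.w) * hlam1)
      | (field_simp; ring)
  have hdet := congrArg Units.val (mem_SUG.1 (hMS hkM))
  rw [LinearEquiv.coe_det, hlin, LinearMap.det_smul, DecompMax.UN.det_hrefLin, D.hc,
    div_mul_cancel₀ _ D.hc0, Module.finrank_fin_fun, Units.val_one] at hdet
  exact h2 (by linear_combination -hdet - (lam * lam + 1) * hlam1)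

end Fr

omit h2 in
/-- An overgroup of the rational elements with an element not respecting the involution is everything. -/
theorem SUG_le_of_ratStr_three (hq : 7 ≤ q) (hodd : Odd q) (h2 : (2 : F) ≠ 0)
    {M : Subgroup (UG 3 F q)} (hMS : M ≤ SUG 3 F q) (hK : ∀ g ∈ SUG 3 F q, Semi bar g → g ∈ M)
    (hne : ∃ g ∈ M, ¬ Semi bar g) : SUG 3 F q ≤ M := by
  obtain ⟨D⟩ := exists_fr hF hb
  by_cases hNR : D.NR hF M
  · exfalso
    rcases D.dichotomy hF hb h2 hK hMS hNR hq hodd with h | h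
    · obtain ⟨g, hg, hn⟩ := hne
      exact hn (h g hg)
    · exact D.not_full hF hb h2 hK hNR hq hodd hMS h
  · exact D.SUG_le_of_root hF hb h2 hK (by omega) hNR

omit hb h2 in
/-- The subfield groups of index two are maximal. -/
theorem real_maximal [Fintype F] (hq : 7 ≤ q) (hodd : Odd q) {F₀ : Subfield F}
    {P : GL (Fin 3) F} (hcard : Fintype.card F = Nat.card F₀ ^ 2)
    (hP : IsFormRationalStructure (Cfsg.hermForm 3 F q) F₀ 1 P) :
    IsMaximalIn (suGL 3 F q) (subfieldSubgroup F₀ P ⊓ suGL 3 F q) := by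
  have hcard' : Nat.card F = Nat.card F₀ ^ 2 := by rw [Nat.card_eq_fintype_card, hcard]
  have h2 : (2 : F) ≠ 0 := by
    obtain ⟨p, k, hp, hc, hk⟩ := hF.exists_char
    haveI := hc
    intro h
    have : p ∣ 2 := (CharP.cast_eq_zero_iff F p 2).1 (by exact_mod_cast h)
    rw [(Nat.prime_dvd_prime_iff_eq hp Nat.prime_two).1 this] at hk
    have hk0 : k ≠ 0 := by rintro rfl; simp at hk; omega
    rw [hk, Nat.odd_pow_iff hk0] at hodd
    exact absurd hodd (by decide)
  have hb := ratStr_orth hF hcard' h2 hP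
  have hperf := suGL_commutator hF (n := 3) le_rfl (by omega)
  refine ⟨lt_of_le_not_ge inf_le_right fun hle =>
    suGL_not_le_subfieldSubgroup hF le_rfl hperf (MaxSub.subfield_ne_top Nat.prime_two hcard) P
      (hle.trans inf_le_left), fun M hM hMK => ?_⟩
  by_cases hsemi : ∀ g ∈ M.comap (ugToGL 3 F q), Semi (ratBar q P) g
  · refine Or.inl (le_antisymm (le_inf (fun g hg => ?_) hMK) hM)
    obtain ⟨k, -, rfl⟩ := exists_ugToGL_eq (hMK hg)
    obtain ⟨μ, hμ⟩ := hsemi k hg
    exact mem_subfieldSubgroup_of_semiComm hF hcard' hμ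
  refine Or.inr (le_antisymm hMK (suGL_le_of_SUG_le ?_))
  push Not at hsemi
  obtain ⟨g, hg, hn⟩ := hsemi
  refine (SUG_le_of_ratStr_three hF hb hq hodd h2 (M := M.comap (ugToGL 3 F q) ⊓ SUG 3 F q)
    inf_le_right (fun k hk hkc => ⟨hM ⟨?_, ugToGL_mem_suGL hk⟩, hk⟩) ⟨g, ⟨hg, ?_⟩, hn⟩).trans
    inf_le_left
  · obtain ⟨μ, hμ⟩ := hkc
    exact mem_subfieldSubgroup_of_semiComm hF hcard' hμ
  · obtain ⟨k, hk, hke⟩ := exists_ugToGL_eq (hMK hg)
    have : Function.Injective (ugToGL 3 F q) := fun a b h => by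
      refine Subtype.ext (LinearEquiv.ext fun x => ?_)
      rw [← ugToGL_mulVec, h, ugToGL_mulVec]
    rwa [← this hke]

end Cfsg.Agent.SUThreeMax
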