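import Cfsg.Agent.SUThreeMax.Stab
import Cfsg.Agent.GeoClasses.UnitRealMaxMain
import Cfsg.Agent.DecompMax.UnitBase

/-!
A semilinear involution of the hermitian space of dimension three: the rational frame, the elements
respecting the involution up to a scalar, and the stabiliser of a rational isotropic line.
-/

set_option autoImplicit false

namespace Cfsg.Agent.SUThreeMax

open Matrix Cfsg.Geo Cfsg.Agent.Classical.U Cfsg.Agent.ClassicalMax Cfsg.Agent.GeoClasses Module
open Cfsg.Agent.Forms (hperp mem_hperp finrank_hperp)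
open scoped MatrixGroups Matrix

universe u

variable {F : Type u} [Field F] {q : ℕ}

/-- The element respects the involution up to a scalar. -/
def Semi (bar : (Fin 3 → F) → (Fin 3 → F)) (g : UG 3 F q) : Prop :=
  ∃ μ : F, ∀ w, bar (g.1 w) = μ • g.1 (bar w)

theorem semi_of_barComm {bar : (Fin 3 → F) → (Fin 3 → F)} {g : UG 3 F q} (h : BarComm bar g) :
    Semi bar g := ⟨1, fun w => by rw [one_smul]; exact h w⟩

/-- A rational frame. -/
structure Fr (q : ℕ) (bar : (Fin 3 → F) → (Fin 3 → F)) where
  /-- first isotropic vector -/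
  e : Fin 3 → F
  /-- second isotropic vector -/
  f : Fin 3 → F
  /-- the vector orthogonal to both -/
  w : Fin 3 → F
  /-- its value -/
  c : F
  hp : IsUPair q e f
  hwe : herm q w e = 0
  hwf : herm q w f = 0
  hc : herm q w w = c
  hc0 : c ≠ 0
  hbe : bar e = e
  hbf : bar f = f
  hbw : bar w = w

variable {bar : (Fin 3 → F) → (Fin 3 → F)}

/-- The elements respecting the involution up to a scalar form a group. -/
def semiGroup (hF : SqField F q) (hb : RatStr q 1 bar) : Subgroup (UG 3 F q) where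
  carrier := {g | Semi bar g}
  one_mem' := ⟨1, fun w => by simp⟩
  mul_mem' := by
    rintro g g' ⟨μ, hμ⟩ ⟨ν, hν⟩
    exact ⟨μ * ν, fun w => by
      rw [Subgroup.coe_mul, LinearEquiv.mul_apply, LinearEquiv.mul_apply, hμ, hν, map_smul,
        smul_smul]⟩
  inv_mem' := by
    rintro g ⟨μ, hμ⟩
    refine ⟨μ⁻¹, fun w => ?_⟩
    have hw : g.1 ((g⁻¹ : UG 3 F q).1 w) = w := by simp
    have hμ0 : μ ≠ 0 := by
      intro h0
      have h1 := hμ ((g⁻¹ : UG 3 F q).1 (Pi.single 0 1))
      rw [h0, zero_smul, show g.1 ((g⁻¹ : UG 3 F q).1 (Pi.single 0 1)) = Pi.single 0 1 by simp] at h1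
      have h2 := congrArg bar h1
      rw [hb.invol, RatStr.map_zero' hF hb] at h2
      simpa using congrFun h2 0
    refine g.1.injective ?_
    have h1 := hμ ((g⁻¹ : UG 3 F q).1 w)
    rw [hw] at h1
    have hw2 : g.1 ((g⁻¹ : UG 3 F q).1 (bar w)) = bar w := by simp
    rw [map_smul, hw2, eq_inv_smul_iff₀ hμ0]
    exact h1.symm

variable (hF : SqField F q)
include hF

variable (hb : RatStr q 1 bar) (h2 : (2 : F) ≠ 0)
include hb

omit hb h2 in
theorem cast_q_real : (q : F) = 0 := by
  obtain ⟨p, k, hp, hc, hk⟩ := hF.exists_char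
  have hk0 : k ≠ 0 := by rintro rfl; have := hF.one_lt; rw [hk, pow_zero] at this; omega
  rw [hk, Nat.cast_pow, CharP.cast_eq_zero, zero_pow hk0]

/-- A rational frame exists. -/
theorem exists_fr : Nonempty (Fr q bar) := by
  have hT : IsBarStable bar (⊤ : Submodule F (Fin 3 → F)) := fun _ _ => trivial
  obtain ⟨e, -, hbe, he0, hee⟩ := RatStr.exists_fix_isotropic hF hb hT (by simp)
  obtain ⟨f', -, hbf', hff', hfe'⟩ := RatStr.exists_fix_partner hF hb hT (p := e) trivial hbe hee
    (by
      by_contra hcon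
      push Not at hcon
      exact he0 (hF.eq_zero_of_herm e fun v => by
        rw [← hF.herm_symm, hcon v trivial, zero_pow hF.q_ne_zero]))
  set t := herm q f' e with ht
  have htq : t ^ q = t := by rw [ht, RatStr.herm_fix hF hb hbf' hbe, one_mul]
  set f := t⁻¹ • f' with hf
  have hbf : bar f = f := by rw [hf, hb.smul, hbf', inv_pow, htq]
  have hff : herm q f f = 0 := by rw [hf, herm_smul_left, herm_smul_right, hff', mul_zero, mul_zero]
  have hfe : herm q f e = 1 := by rw [hf, herm_smul_left, inv_mul_cancel₀ hfe']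
  have hp : IsUPair q e f := ⟨hee, hff, herm_rev hF hfe⟩
  set S := hperp q (Submodule.span F ({e, f} : Set (Fin 3 → F))) with hS
  have hSne : S ≠ ⊥ := by
    intro h0
    have h1 : finrank F S = 3 - finrank F (Submodule.span F ({e, f} : Set (Fin 3 → F))) :=
      finrank_hperp hF _
    rw [h0, finrank_bot] at h1
    classical
    have h2 := finrank_span_finset_le_card (R := F) ({e, f} : Finset (Fin 3 → F))
    rw [Finset.coe_pair] at h2
    have h3 : finrank F (Submodule.span F ({e, f} : Set (Fin 3 → F))) ≤ 2 :=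
      le_trans h2 Finset.card_le_two
    omega
  obtain ⟨w, hwS, hbw, hwbot⟩ := RatStr.exists_fix_not_mem hF hb (RatStr.stable_pair hF hb hbe hbf)
    (N := ⊥) fun h => hSne (le_bot_iff.1 h)
  obtain ⟨hwe, hwf⟩ := (mem_hperp_pair hF).1 hwS
  have hw0 : w ≠ 0 := fun h => hwbot (by rw [h]; exact zero_mem _)
  refine ⟨⟨e, f, w, herm q w w, hp, hwe, hwf, rfl, fun h0 => ?_, hbe, hbf, hbw⟩⟩
  obtain ⟨h1, h2, h3⟩ := hp
  have key := perp_pair hF ⟨h1, h2, h3⟩ hwe h0
  rw [hwf, zero_smul] at key
  exact hw0 key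

namespace Fr

variable (D : Fr q bar)

theorem hfe : herm q D.f D.e = 1 := herm_rev hF D.hp.2.2

theorem hew : herm q D.e D.w = 0 := by rw [← hF.herm_symm, D.hwe, zero_pow hF.q_ne_zero]

theorem hfw : herm q D.f D.w = 0 := by rw [← hF.herm_symm, D.hwf, zero_pow hF.q_ne_zero]

theorem hcq : D.c ^ q = D.c := by rw [← D.hc, hF.herm_symm]

theorem w_ne : D.w ≠ 0 := fun h => D.hc0 (by rw [← D.hc, h, herm_zero_left])

theorem decomp (v : Fin 3 → F) :
    v = herm q v D.f • D.e + herm q v D.e • D.f + (herm q v D.w / D.c) • D.w := by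
  set r := v - herm q v D.f • D.e - herm q v D.e • D.f with hr
  have hre : herm q r D.e = 0 := by
    rw [hr, herm_sub_left, herm_sub_left, herm_smul_left, herm_smul_left, D.hp.1, D.hfe hF hb]
    ring
  have hrf : herm q r D.f = 0 := by
    rw [hr, herm_sub_left, herm_sub_left, herm_smul_left, herm_smul_left, D.hp.2.1, D.hp.2.2]
    ring
  obtain ⟨k, hk⟩ := perp_multiple hF D.hp D.hwe D.hwf hre hrf (D.w_ne hF hb)
  have hkv : k = herm q v D.w / D.c := by
    have h1 := congrArg (fun x => herm q x D.w) hk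
    simp only [hr, herm_sub_left, herm_smul_left, D.hew hF hb, D.hfw hF hb, D.hc, mul_zero,
      sub_zero] at h1
    rw [h1, mul_div_cancel_right₀ _ D.hc0]
  rw [← hkv, ← hk, hr]
  abel

theorem herm_fix_real {v x : Fin 3 → F} (hv : bar v = v) (hx : bar x = x) :
    herm q v x ^ q = herm q v x := by
  rw [RatStr.herm_fix hF hb hv hx, one_mul]

/-- An element with rational eigenvalues on the frame commutes with the involution. -/
theorem barComm_of_vals {g : UG 3 F q} {a b d : F} (he : g.1 D.e = a • D.e) (hf : g.1 D.f = b • D.f)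
    (hw : g.1 D.w = d • D.w) (ha : a ^ q = a) (hb' : b ^ q = b) (hd : d ^ q = d) :
    BarComm bar g := by
  intro v
  have hv := D.decomp hF hb v
  set x := herm q v D.f
  set y := herm q v D.e
  set z := herm q v D.w / D.c
  rw [hv]
  simp only [hb.add, hb.smul, map_add, map_smul, he, hf, hw, D.hbe, D.hbf, D.hbw, ha, hb', hd]

theorem cond {γ a : F} (h : a + a ^ q + γ * γ ^ q * D.c = 0) :
    UniCond q D.e (γ • D.w) a :=
  ⟨D.hp.1, by rw [herm_smul_left, D.hwe, mul_zero], by
    rw [herm_smul_left, herm_smul_right, D.hc]; linear_combination h⟩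

theorem of_cond {γ a : F} (h : UniCond q D.e (γ • D.w) a) : a + a ^ q + γ * γ ^ q * D.c = 0 := by
  have := h.2.2
  rw [herm_smul_left, herm_smul_right, D.hc] at this
  linear_combination this

theorem uni_e {γ a : F} (h : UniCond q D.e (γ • D.w) a) : (uni hF h).1 D.e = D.e := by
  rw [uni_apply, D.hp.1, herm_smul_right, D.hew hF hb]
  simp

theorem uni_w {γ a : F} (h : UniCond q D.e (γ • D.w) a) :
    (uni hF h).1 D.w = D.w - (γ ^ q * D.c) • D.e := by
  rw [uni_apply, D.hwe, herm_smul_right, D.hc]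
  module

theorem uni_f {γ a : F} (h : UniCond q D.e (γ • D.w) a) :
    (uni hF h).1 D.f = D.f + γ • D.w + a • D.e := by
  rw [uni_apply, D.hfe hF hb, herm_smul_right, D.hfw hF hb]
  module

include h2

theorem real_param {γ : F} (hγ : γ ^ q = γ) :
    (-(γ * γ * D.c) / 2) ^ q = -(γ * γ * D.c) / 2 := by
  rw [div_pow, hF.neg_pow, mul_pow, mul_pow, hγ, D.hcq hF hb,
    show (2 : F) = 1 + 1 by norm_num, hF.add_pow, one_pow]

/-- The rational unipotent condition. -/
theorem real_cond {γ : F} (hγ : γ ^ q = γ) :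
    UniCond q D.e (γ • D.w) (-(γ * γ * D.c) / 2) := by
  refine D.cond hF hb ?_
  rw [D.real_param hF hb h2 hγ, hγ]
  field_simp
  ring

theorem real_uni_barComm {γ : F} (hγ : γ ^ q = γ) : BarComm bar (uni hF (D.real_cond hF hb h2 hγ)) :=
  RatStr.uni_barComm hF hb D.hbe _ (by rw [hb.smul, D.hbw, hγ, one_smul])
    (by rw [D.real_param hF hb h2 hγ, one_mul])

/-- The elements scaling the isotropic vectors. -/
theorem exists_tau {l : F} (hl : l ≠ 0) (hlq : l ^ q = l) : ∃ t ∈ SUG 3 F q, BarComm bar t ∧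
    t.1 D.e = l • D.e ∧ t.1 D.f = l⁻¹ • D.f ∧ t.1 D.w = D.w := by
  obtain ⟨g, hg, hge, hgx⟩ := exists_TG_scale hF D.hp hl hlq
  have hgw : g.1 D.w = D.w := hgx _ D.hwe D.hwf
  set s := herm q (g.1 D.f) D.f with hs
  have h1 : herm q (g.1 D.f) D.e = l⁻¹ := by
    have := UG_app g D.f D.e
    rw [hge, herm_smul_right, hlq, D.hfe hF hb] at this
    exact eq_inv_of_mul_eq_one_right this
  have h3 : herm q (g.1 D.f) D.w = 0 := by
    rw [← hgw, UG_app, D.hfw hF hb]
  have hgf : g.1 D.f = s • D.e + l⁻¹ • D.f := by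
    rw [D.decomp hF hb (g.1 D.f), h1, h3, zero_div, zero_smul, add_zero]
  have hsq : s ^ q = -s := by
    have := UG_app g D.f D.f
    rw [hgf] at this
    simp only [herm_add_left, hF.herm_add_right, herm_smul_left, herm_smul_right, D.hp.1, D.hp.2.1,
      D.hp.2.2, D.hfe hF hb, inv_pow, hlq] at this
    field_simp at this
    exact mul_left_cancel₀ hl (by linear_combination this)
  have hc : TrvCond q D.e (-(s * l)) := ⟨D.hp.1, by rw [hF.neg_pow, mul_pow, hsq, hlq]; ring⟩
  have hte : (trv hF hc * g).1 D.e = l • D.e := by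
    rw [Subgroup.coe_mul, LinearEquiv.mul_apply, hge, trv_apply, herm_smul_left, D.hp.1]
    simp
  have htw : (trv hF hc * g).1 D.w = D.w := by
    rw [Subgroup.coe_mul, LinearEquiv.mul_apply, hgw, trv_apply, D.hwe]
    simp
  have htf : (trv hF hc * g).1 D.f = l⁻¹ • D.f := by
    rw [Subgroup.coe_mul, LinearEquiv.mul_apply, hgf, trv_apply]
    simp only [herm_add_left, herm_smul_left, D.hp.1, D.hfe hF hb, mul_zero, zero_add, mul_one]
    rw [neg_mul, mul_assoc, mul_inv_cancel₀ hl, mul_one]
    module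
  exact ⟨_, TG_le_SUG hF (mul_mem (trv_mem hF hc) hg),
    D.barComm_of_vals hF hb hte htf (d := 1) (by rw [one_smul]; exact htw) hlq
      (by rw [inv_pow, hlq]) (one_pow q), hte, htf, htw⟩

omit hb in
/-- Every element of the root group at the rational point in the group is rational. -/
def NR (M : Subgroup (UG 3 F q)) : Prop :=
  ∀ (γ a : F) (h : UniCond q D.e (γ • D.w) a), uni hF h ∈ M → γ ^ q = γ ∧ a ^ q = a

variable {M : Subgroup (UG 3 F q)} (hK : ∀ g ∈ SUG 3 F q, Semi bar g → g ∈ M)
include hK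

theorem real_uni_mem {γ : F} (hγ : γ ^ q = γ) : uni hF (D.real_cond hF hb h2 hγ) ∈ M :=
  hK _ (det_uni hF _) (semi_of_barComm (D.real_uni_barComm hF hb h2 hγ))

/-- A root element outside the rational ones gives the whole group. -/
theorem SUG_le_of_root (hq : 3 ≤ q) (hroot : ¬ D.NR hF M) : SUG 3 F q ≤ M := by
  unfold NR at hroot
  push Not at hroot
  obtain ⟨γ, a, h, hM, hne⟩ := hroot
  have ha := D.of_cond hF hb h
  obtain ⟨a0, h0, ha0, hc0, hM0⟩ : ∃ (a0 : F) (h0 : TrvCond q D.e a0),
      a0 ^ q = -a0 ∧ a0 ≠ 0 ∧ trv hF h0 ∈ M := by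
    by_cases hγ : γ ^ q = γ
    · have hn : (-γ) ^ q = -γ := by rw [hF.neg_pow, hγ]
      rw [hγ] at ha
      have hskew : (a + γ * γ * D.c / 2) ^ q = -(a + γ * γ * D.c / 2) := by
        rw [hF.add_pow, div_pow, mul_pow, mul_pow, hγ, D.hcq hF hb,
          show (2 : F) ^ q = 2 by rw [show (2 : F) = 1 + 1 by norm_num, hF.add_pow, one_pow]]
        field_simp
        linear_combination 2 * ha
      refine ⟨a + γ * γ * D.c / 2, ⟨D.hp.1, hskew⟩, hskew, ?_, ?_⟩
      · intro h0
        refine hne hγ ?_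
        linear_combination ha - 2 * h0 + (γ * γ * D.c) * div_self h2
      · have := mul_mem hM (D.real_uni_mem hF hb h2 hK hn)
        rw [uni_mul] at this
        convert this using 1
        refine uni_congr hF _ _ rfl (by rw [neg_smul, add_neg_cancel]) ?_
        rw [herm_smul_left, herm_smul_right, D.hc, hγ]
        field_simp
        ring
    · set d := (γ - γ ^ q) * D.c with hd
      have hdq : d ^ q = -d := by rw [hd, mul_pow, hF.sub_pow, hF.pow_pow, D.hcq hF hb]; ring
      refine ⟨d, ⟨D.hp.1, hdq⟩, hdq, mul_ne_zero (sub_ne_zero.2 (Ne.symm hγ)) D.hc0, ?_⟩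
      have hu := D.real_uni_mem hF hb h2 hK (γ := 1) (one_pow q)
      have key : trv hF (⟨D.hp.1, hdq⟩ : TrvCond q D.e d) *
          (uni hF (D.real_cond hF hb h2 (γ := 1) (one_pow q)) * uni hF h) =
          uni hF h * uni hF (D.real_cond hF hb h2 (γ := 1) (one_pow q)) := by
        unfold trv
        rw [uni_mul, uni_mul, uni_mul]
        refine uni_congr hF _ _ rfl (by rw [zero_add, add_comm]) ?_
        simp only [herm_add_left, herm_smul_left, herm_smul_right, hF.herm_zero_right,
          D.hc, hd, one_pow]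
        ring
      rw [← eq_mul_inv_iff_mul_eq] at key
      rw [key]
      exact mul_mem (mul_mem hM hu) (inv_mem (mul_mem hu hM))
  have hscale : ∀ x : F, x ^ q = x → ∀ hx : TrvCond q D.e (a0 * (x * x)), trv hF hx ∈ M := by
    intro x hxq hx
    rcases eq_or_ne x 0 with rfl | hx0
    · convert one_mem M using 1
      exact Subtype.ext (LinearEquiv.ext fun v => by rw [trv_apply]; simp)
    obtain ⟨t, htS, htb, hte, -, -⟩ := D.exists_tau hF hb h2 hx0 hxq
    have htM := hK t htS (semi_of_barComm htb)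
    have hx' : TrvCond q (x • D.e) a0 :=
      ⟨by rw [herm_smul_left, herm_smul_right, D.hp.1, mul_zero, mul_zero], ha0⟩
    have := mul_mem (mul_mem htM hM0) (inv_mem htM)
    rw [trv, uni_conj] at this
    convert this using 1
    refine Subtype.ext (LinearEquiv.ext fun v => ?_)
    rw [trv_apply, uni_apply, map_zero, hte, herm_smul_right, hxq, hF.herm_zero_right]
    module
  have hec : D.e ∈ trvCentres hF M := by
    refine ⟨D.hp.1, fun b hbc => ?_⟩
    set r := b / a0 with hr
    have hrq : r ^ q = r := by rw [hr, div_pow, hbc.2, ha0, neg_div_neg_eq]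
    have h22 : (2 : F) ^ q = 2 := by rw [show (2 : F) = 1 + 1 by norm_num, hF.add_pow, one_pow]
    set x := (r + 1) / 2 with hx
    set y := (r - 1) / 2 with hy
    have hxq : x ^ q = x := by rw [hx, div_pow, hF.add_pow, hrq, one_pow, h22]
    have hyq : y ^ q = y := by rw [hy, div_pow, hF.sub_pow, hrq, one_pow, h22]
    have cx : TrvCond q D.e (a0 * (x * x)) :=
      ⟨D.hp.1, by rw [mul_pow, mul_pow, hxq, ha0]; ring⟩
    have cy : TrvCond q D.e (a0 * (y * y)) :=
      ⟨D.hp.1, by rw [mul_pow, mul_pow, hyq, ha0]; ring⟩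
    have hbr : b = a0 * (x * x) - a0 * (y * y) := by
      rw [hx, hy, hr]; field_simp; ring
    have := mul_mem (hscale x hxq cx) (inv_mem (hscale y hyq cy))
    convert this using 1
    rw [eq_mul_inv_iff_mul_eq]
    refine Subtype.ext (LinearEquiv.ext fun v => ?_)
    rw [Subgroup.coe_mul, LinearEquiv.mul_apply, trv_apply, trv_apply, trv_apply, herm_add_left,
      herm_smul_left, D.hp.1, hbr]
    module
  have img : ∀ γ : F, γ ^ q = γ → D.e + γ • D.w + (-(γ * γ * D.c) / 2) • D.f ∈ trvCentres hF M := by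
    intro γ hγ
    have hc : UniCond q D.f (γ • D.w) (-(γ * γ * D.c) / 2) := by
      refine ⟨D.hp.2.1, by rw [herm_smul_left, D.hwf, mul_zero], ?_⟩
      rw [D.real_param hF hb h2 hγ, herm_smul_left, herm_smul_right, hγ, D.hc]
      field_simp
      ring
    have hm : uni hF hc ∈ M := hK _ (det_uni hF _) (semi_of_barComm
      (RatStr.uni_barComm hF hb D.hbf hc (by rw [hb.smul, D.hbw, hγ, one_smul])
        (by rw [D.real_param hF hb h2 hγ, one_mul])))
    have := map_mem_trvCentres hF hec hm
    rw [uni_apply, D.hp.2.2, herm_smul_right, D.hew hF hb] at this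
    convert this using 1
    module
  have hy1 := img 1 (one_pow q)
  have hz := img (-1) (by rw [hF.neg_pow, one_pow])
  refine SUG_le_of_three_centres hF hq hec hy1 ?_ hz fun A B hAB => ?_
  · simp only [hF.herm_add_right, herm_smul_right, D.hp.1, D.hp.2.2, D.hew hF hb, mul_zero,
      add_zero, zero_add, mul_one]
    exact pow_ne_zero _ (div_ne_zero (neg_ne_zero.2 (by simpa using D.hc0)) h2)
  · have e1 := congrArg (fun x => herm q x D.e) hAB
    have e2 := congrArg (fun x => herm q x D.w) hAB
    simp only [herm_add_left, herm_smul_left, D.hp.1, D.hwe, D.hfe hF hb, D.hew hF hb,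
      D.hfw hF hb, D.hc] at e1 e2
    field_simp at e1
    have hB : B = 1 := mul_right_cancel₀ D.hc0 (by linear_combination e1)
    rw [hB] at e2
    exact mul_ne_zero h2 D.hc0 (by linear_combination -e2)

/-- Without root elements, the stabiliser of the rational point respects the involution. -/
theorem semi_of_fix_line (hNR : D.NR hF M) {g : UG 3 F q} (hg : g ∈ M) {l : F}
    (hge : g.1 D.e = l • D.e) : Semi bar g := by
  have hl0 : l ≠ 0 := fun h => D.hp.ne_zero (g.1.injective (by rw [hge, h, zero_smul, map_zero]))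
  set κ := herm q (g.1 D.w) D.f with hκ
  set η := herm q (g.1 D.w) D.w / D.c with hη
  have hgwe : herm q (g.1 D.w) D.e = 0 := by
    have := UG_app g D.w D.e
    rw [hge, herm_smul_right, D.hwe] at this
    exact (mul_eq_zero.1 this).resolve_left (pow_ne_zero _ hl0)
  have hgw : g.1 D.w = κ • D.e + η • D.w := by
    rw [D.decomp hF hb (g.1 D.w), hgwe, zero_smul, add_zero]
  have hηn : η * η ^ q = 1 := by
    have := UG_app g D.w D.w
    rw [hgw] at this
    simp only [herm_add_left, hF.herm_add_right, herm_smul_left, herm_smul_right, D.hp.1, D.hwe,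
      D.hew hF hb, D.hc] at this
    exact mul_right_cancel₀ D.hc0 (by linear_combination this)
  have h1q : (1 : F) ^ q = 1 := one_pow q
  have hA := D.real_param hF hb h2 h1q
  set A := -(1 * 1 * D.c) / 2 with hAdef
  have hcj := mul_mem (mul_mem hg (D.real_uni_mem hF hb h2 hK h1q)) (inv_mem hg)
  set γ := l ^ q * η with hγdef
  set k := l ^ q * κ with hkdef
  have hlw : l ^ q • g.1 D.w = γ • D.w + k • D.e := by rw [hgw, hγdef, hkdef]; module
  have hsum := D.of_cond hF hb (D.real_cond hF hb h2 h1q)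
  have hcond : UniCond q D.e (γ • D.w) (l * l ^ q * A + k - k ^ q) := by
    refine D.cond hF hb ?_
    have hγn : γ * γ ^ q = l * l ^ q * (η * η ^ q) := by
      rw [hγdef, mul_pow, hF.pow_pow]; ring
    simp only [hF.sub_pow, hF.add_pow, mul_pow, hF.pow_pow, hA]
    rw [hγn]
    rw [← hAdef, hA, one_pow] at hsum
    linear_combination (l * l ^ q) * hsum + (l * l ^ q * D.c) * hηn
  have hmem : uni hF hcond ∈ M := by
    convert hcj using 1
    rw [uni_conj]
    refine Subtype.ext (LinearEquiv.ext fun v => ?_)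
    rw [uni_apply, uni_apply, hge, one_smul, herm_smul_right, herm_smul_right]
    have e1 : herm q v (g.1 D.w) = κ ^ q * herm q v D.e + η ^ q * herm q v D.w := by
      rw [hgw, hF.herm_add_right, herm_smul_right, herm_smul_right]
    rw [e1, hgw, hγdef, hkdef, mul_pow, mul_pow, hF.pow_pow]
    module
  obtain ⟨hγq, haq⟩ := hNR _ _ hcond hmem
  have hk : k ^ q = k := by
    simp only [hF.sub_pow, hF.add_pow, mul_pow, hF.pow_pow, hA] at haq
    exact mul_left_cancel₀ h2 (by linear_combination haq)
  have hl : l = γ * η := by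
    have : γ ^ q = l * η ^ q := by rw [hγdef, mul_pow, hF.pow_pow]
    rw [← hγq, this]
    linear_combination -l * hηn
  have hγ0 : γ ≠ 0 := fun h => hl0 (by rw [hl, h, zero_mul])
  obtain ⟨t, htS, htb, hte, htf, htw⟩ := D.exists_tau hF hb h2 (inv_ne_zero hγ0) (by rw [inv_pow, hγq])
  have htM := hK t htS (semi_of_barComm htb)
  set γ0 := κ * η ^ q / D.c with hγ0def
  have hγ0q : γ0 ^ q = γ0 := by
    have e : k = γ * (η ^ q * κ) := by
      rw [hkdef, hγdef]; linear_combination -(l ^ q * κ) * hηn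
    have e2 : (η ^ q * κ) ^ q = η ^ q * κ := by
      have := hk
      rw [e, mul_pow, hγq] at this
      exact mul_left_cancel₀ hγ0 this
    rw [hγ0def, div_pow, D.hcq hF hb, mul_comm κ, e2]
  have huM := D.real_uni_mem hF hb h2 hK hγ0q
  set g' := g * (t * uni hF (D.real_cond hF hb h2 hγ0q)) with hg'
  have hg'M : g' ∈ M := mul_mem hg (mul_mem htM huM)
  have hg'e : g'.1 D.e = η • D.e := by
    simp only [hg', Subgroup.coe_mul, LinearEquiv.mul_apply, D.uni_e hF hb, hte, map_smul, hge,
      smul_smul, hl]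
    congr 1
    field_simp
  have hg'w : g'.1 D.w = η • D.w := by
    simp only [hg', Subgroup.coe_mul, LinearEquiv.mul_apply, D.uni_w hF hb, map_sub, map_smul, htw,
      hte, hgw, hge, smul_smul, hl, hγ0q]
    match_scalars
    all_goals first
      | (rw [hγ0def]
         have hc0 := D.hc0
         field_simp
         linear_combination -κ * hηn)
      | ring
  set P := herm q (g'.1 D.f) D.f with hP
  have hq1 : herm q (g'.1 D.f) D.e = η := by
    have := UG_app g' D.f D.e
    rw [hg'e, herm_smul_right, D.hfe hF hb] at this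
    linear_combination η * this - herm q (g'.1 D.f) D.e * hηn
  have hq2 : herm q (g'.1 D.f) D.w = 0 := by
    have := UG_app g' D.f D.w
    rw [hg'w, herm_smul_right, D.hfw hF hb] at this
    exact (mul_eq_zero.1 this).resolve_left (fun h => by rw [h, mul_zero] at hηn; exact zero_ne_one hηn)
  have hg'f : g'.1 D.f = P • D.e + η • D.f := by
    rw [D.decomp hF hb (g'.1 D.f), hq1, hq2, zero_div, zero_smul, add_zero]
  set d := P * η ^ q with hd
  have hform : ∀ v, g'.1 v = η • (v + (d * herm q v D.e) • D.e) := by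
    intro v
    have hv := D.decomp hF hb v
    have he : herm q (herm q v D.f • D.e + herm q v D.e • D.f + (herm q v D.w / D.c) • D.w) D.e =
        herm q v D.e := by rw [← hv]
    conv_lhs => rw [hv]
    conv_rhs => arg 2; arg 1; rw [hv]
    rw [map_add, map_add, map_smul, map_smul, map_smul, hg'e, hg'f, hg'w, hd]
    match_scalars
    · linear_combination -(P * herm q v D.e) * hηn
    all_goals ring
  have hdq : d ^ q = -d := by
    have := UG_app g' D.f D.f
    rw [hg'f] at this
    simp only [herm_add_left, hF.herm_add_right, herm_smul_left, herm_smul_right, D.hp.1, D.hp.2.1,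
      D.hp.2.2, D.hfe hF hb] at this
    rw [hd, mul_pow, hF.pow_pow]
    linear_combination this
  have hpow : ∀ (n : ℕ) v, (g' ^ n).1 v = η ^ n • (v + ((n : F) * d * herm q v D.e) • D.e) := by
    intro n
    induction n with
    | zero => intro v; simp
    | succ n ih =>
      intro v
      rw [pow_succ, Subgroup.coe_mul, LinearEquiv.mul_apply, ih, hform, herm_smul_left,
        herm_add_left, herm_smul_left, D.hp.1, Nat.cast_succ]
      module
  have hdc : UniCond q D.e ((0 : F) • D.w) d := D.cond hF hb (by rw [hdq]; simp)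
  have hdM : uni hF hdc ∈ M := by
    have := pow_mem hg'M (q + 1)
    convert this using 1
    refine Subtype.ext (LinearEquiv.ext fun v => ?_)
    rw [hpow, uni_apply, zero_smul, hF.herm_zero_right, pow_succ', hηn, one_smul, Nat.cast_succ,
      Cfsg.Agent.SUThreeMax.cast_q_real hF]
    module
  have hd0 : d = 0 := by
    have := (hNR _ _ hdc hdM).2
    rw [hdq] at this
    exact mul_left_cancel₀ h2 (by linear_combination -this)
  have hsc : Semi bar g' := ⟨η ^ q * η ^ q, fun v => by
    rw [hform, hform, hd0, zero_mul, zero_smul, add_zero, zero_mul, zero_smul, add_zero, hb.smul,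
      smul_smul]
    congr 1
    linear_combination -η ^ q * hηn⟩
  have hh : Semi bar (t * uni hF (D.real_cond hF hb h2 hγ0q)) :=
    (semiGroup hF hb).mul_mem (semi_of_barComm htb)
      (semi_of_barComm (D.real_uni_barComm hF hb h2 hγ0q))
  have : g = g' * (t * uni hF (D.real_cond hF hb h2 hγ0q))⁻¹ := by rw [hg', mul_inv_cancel_right]
  rw [this]
  exact (semiGroup hF hb).mul_mem hsc ((semiGroup hF hb).inv_mem hh)

omit hK

/-- The rational elements are transitive on the rational isotropic lines. -/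
theorem exists_map_e {v : Fin 3 → F} (hv : bar v = v) (hvv : herm q v v = 0) :
    ∃ g ∈ SUG 3 F q, BarComm bar g ∧ ∃ k : F, v = k • g.1 D.e := by
  set t := herm q v D.e with ht
  rcases eq_or_ne t 0 with h0 | h0
  · exact ⟨1, one_mem _, fun w => rfl, herm q v D.f, perp_pair hF D.hp h0 hvv⟩
  have htq : t ^ q = t := herm_fix_real hF hb hv D.hbe
  set δ := herm q v D.w / (D.c * t) with hδ
  have hδq : δ ^ q = δ := by
    rw [hδ, div_pow, mul_pow, D.hcq hF hb, htq, herm_fix_real hF hb hv D.hbw]
  have hvd : v = herm q v D.f • D.e + t • D.f + (t * δ) • D.w := by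
    conv_lhs => rw [D.decomp hF hb v, ← ht]
    congr 2
    rw [hδ]; field_simp
  have hα : herm q v D.f = t * (-(δ * δ * D.c) / 2) := by
    have := hvv
    rw [hvd] at this
    simp only [herm_add_left, hF.herm_add_right, herm_smul_left, herm_smul_right, D.hp.1,
      D.hp.2.1, D.hp.2.2, D.hfe hF hb, D.hwe, D.hwf, D.hew hF hb, D.hfw hF hb, D.hc,
      mul_pow, htq, hδq, herm_fix_real hF hb hv D.hbf] at this
    field_simp
    exact mul_left_cancel₀ h0 (by linear_combination this)
  have hm : (2 / D.c) ^ q = 2 / D.c := by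
    rw [div_pow, D.hcq hF hb, show (2 : F) = 1 + 1 by norm_num, hF.add_pow, one_pow]
  have h1 : (1 : F) ^ q = 1 := one_pow q
  have hc1 : UniCond q D.f ((1 : F) • D.w) (-(1 * 1 * D.c) / 2) := by
    refine ⟨D.hp.2.1, by rw [herm_smul_left, D.hwf, mul_zero], ?_⟩
    rw [D.real_param hF hb h2 h1, herm_smul_left, herm_smul_right, h1, D.hc]
    field_simp
    ring
  have hb1 : BarComm bar (uni hF hc1) := RatStr.uni_barComm hF hb D.hbf hc1
    (by rw [hb.smul, D.hbw, h1]; simp) (by rw [D.real_param hF hb h2 h1]; simp)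
  refine ⟨uni hF (D.real_cond hF hb h2 hδq) * (uni hF (D.real_cond hF hb h2 hm) * uni hF hc1),
    mul_mem (det_uni hF _) (mul_mem (det_uni hF _) (det_uni hF _)), fun w => ?_,
    -2 * t / D.c, ?_⟩
  · rw [Subgroup.coe_mul, Subgroup.coe_mul, LinearEquiv.mul_apply, LinearEquiv.mul_apply,
      D.real_uni_barComm hF hb h2 hδq, D.real_uni_barComm hF hb h2 hm, hb1]
    rfl
  · have e1 : (uni hF hc1).1 D.e = D.e + D.w + (-(1 * 1 * D.c) / 2) • D.f := by
      rw [uni_apply, D.hp.2.2, herm_smul_right, D.hew hF hb]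
      module
    have e2 : (uni hF (D.real_cond hF hb h2 hm)).1 (D.e + D.w + (-(1 * 1 * D.c) / 2) • D.f) =
        (-D.c / 2) • D.f := by
      rw [map_add, map_add, map_smul, D.uni_e hF hb, D.uni_w hF hb, D.uni_f hF hb, hm]
      have hc0 := D.hc0
      match_scalars <;> field_simp <;> ring
    simp only [Subgroup.coe_mul, LinearEquiv.mul_apply, e1, e2, map_smul, D.uni_f hF hb]
    conv_lhs => rw [hvd, hα]
    have hc0 := D.hc0
    match_scalars <;> field_simp

omit h2 in
theorem real_multiple {v : Fin 3 → F} {t : F} (hv : bar v = t • v) :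
    ∃ k : F, k ≠ 0 ∧ bar (k • v) = k • v := by
  by_cases ht : t = -1
  · obtain ⟨d, hd0, hd⟩ := hF.exists_skew
    exact ⟨d, hd0, by rw [hb.smul, hd, hv, ht, neg_one_smul, neg_smul_neg]⟩
  · refine ⟨1 + t, fun h => ht (eq_neg_of_add_eq_zero_right h), ?_⟩
    have : (1 + t) • v = v + bar v := by rw [hv, add_smul, one_smul]
    rw [this, hb.add, hb.invol, add_comm]

include hK

/-- An element of the group carrying a rational isotropic line to a rational one is rational. -/
theorem semi_of_map_real (hNR : D.NR hF M) {g : UG 3 F q} (hg : g ∈ M) {a b : Fin 3 → F}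
    (ha : bar a = a) (haa : herm q a a = 0) (ha0 : a ≠ 0) {t : F} (hbt : bar b = t • b) {k : F}
    (hgab : g.1 a = k • b) : Semi bar g := by
  have hk0 : k ≠ 0 := fun h => ha0 (g.1.injective (by rw [hgab, h, zero_smul, map_zero]))
  obtain ⟨j, hj0, hj⟩ := real_multiple hF hb hbt
  have hbb : herm q (j • b) (j • b) = 0 := by
    have := UG_app g a a
    rw [hgab, herm_smul_left, herm_smul_right, haa] at this
    rw [herm_smul_left, herm_smul_right,
      ((mul_eq_zero.1 this).resolve_left hk0 |> mul_eq_zero.1).resolve_left (pow_ne_zero _ hk0),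
      mul_zero, mul_zero]
  obtain ⟨h1, h1S, h1b, k1, hk1⟩ := D.exists_map_e hF hb h2 ha haa
  obtain ⟨g2, h2S, h2b, k2, hk2⟩ := D.exists_map_e hF hb h2 hj hbb
  have hk10 : k1 ≠ 0 := fun h => ha0 (by rw [hk1, h, zero_smul])
  have hmem : g2⁻¹ * g * h1 ∈ M :=
    mul_mem (mul_mem (inv_mem (hK _ h2S (semi_of_barComm h2b))) hg)
      (hK _ h1S (semi_of_barComm h1b))
  have he : (g2⁻¹ * g * h1).1 D.e = (k1⁻¹ * (k * (j⁻¹ * k2))) • D.e := by
    have e1 : h1.1 D.e = k1⁻¹ • a := by rw [hk1, inv_smul_smul₀ hk10]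
    have e2 : b = (j⁻¹ * k2) • g2.1 D.e := by rw [← smul_smul, ← hk2, inv_smul_smul₀ hj0]
    simp only [Subgroup.coe_mul, LinearEquiv.mul_apply, e1, map_smul, hgab, e2, smul_smul]
    simp [mul_assoc]
  have hs := D.semi_of_fix_line hF hb h2 hK hNR hmem he
  have : g = g2 * (g2⁻¹ * g * h1) * h1⁻¹ := by group
  rw [this]
  exact (semiGroup hF hb).mul_mem ((semiGroup hF hb).mul_mem (semi_of_barComm h2b) hs)
    ((semiGroup hF hb).inv_mem (semi_of_barComm h1b))

end Fr

include h2
/-- The involution centred at a rational non-isotropic vector. -/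
theorem exists_invol_at {x : Fin 3 → F} (hx : bar x = x) (hxx : herm q x x ≠ 0) :
    ∃ t ∈ SUG 3 F q, BarComm bar t ∧
      ∀ v, t.1 v = (2 * herm q v x / herm q x x) • x - v := by
  have hcq : herm q x x ^ q = herm q x x := hF.herm_symm x x
  set c := -2 / herm q x x with hc
  have h2q : (2 : F) ^ q = 2 := by rw [show (2 : F) = 1 + 1 by norm_num, hF.add_pow, one_pow]
  have hcc : c ^ q = c := by rw [hc, div_pow, hF.neg_pow, h2q, hcq]
  have hr : c + c ^ q + c * c ^ q * herm q x x = 0 := by rw [hcc, hc]; field_simp; ring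
  let ng : UG 3 F q := ⟨LinearEquiv.neg F, fun u v => by
    show herm q (-u) (-v) = herm q u v
    rw [show -u = (-1 : F) • u by simp, show -v = (-1 : F) • v by simp, herm_smul_left,
      herm_smul_right, hF.neg_pow, one_pow]; ring⟩
  have hng : ∀ v, ng.1 v = -v := fun v => rfl
  have happ : ∀ v, (ng * href hF hr).1 v = (2 * herm q v x / herm q x x) • x - v := fun v => by
    rw [Subgroup.coe_mul, LinearEquiv.mul_apply, hng, href_apply, hc]
    match_scalars <;> ring
  refine ⟨ng * href hF hr, ?_, fun w => ?_, happ⟩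
  · rw [mem_SUG, Subgroup.coe_mul, map_mul]
    refine Units.ext ?_
    rw [Units.val_mul, Units.val_one, DecompMax.UN.det_href hF hr, LinearEquiv.coe_det,
      show (ng.1 : (Fin 3 → F) →ₗ[F] (Fin 3 → F)) = (-1 : F) • LinearMap.id by ext; simp [hng],
      LinearMap.det_smul, LinearMap.det_id, hc, Module.finrank_fin_fun]
    field_simp
    ring
  · rw [happ, happ, RatStr.map_sub' hF hb, hb.smul, hx, RatStr.herm_bar_left hF hb, hx, one_mul,
      div_pow, mul_pow, h2q, hcq]

end Cfsg.Agent.SUThreeMax
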