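import Cfsg.Agent.GeoClasses.UnitNondeg

/-!
Three full groups of transvections with non-collinear centres generate `SU_3(q)`.
-/

set_option autoImplicit false

namespace Cfsg.Agent.SUThreeMax

open Matrix Cfsg.Geo Cfsg.Agent.Classical.U Cfsg.Agent.ClassicalMax Cfsg.Agent.GeoClasses
open scoped MatrixGroups Matrix

universe u

variable {F : Type u} [Field F] {n q : ℕ}

/-- The isotropic vectors whose whole group of transvections lies in `M`. -/
def trvCentres (hF : SqField F q) (M : Subgroup (UG n F q)) : Set (Fin n → F) :=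
  {e | herm q e e = 0 ∧ ∀ (a : F) (h : TrvCond q e a), trv hF h ∈ M}

variable (hF : SqField F q)
include hF

lemma uniCentres_subset {M : Subgroup (UG n F q)} {e : Fin n → F} (h : e ∈ uniCentres hF M) :
    e ∈ trvCentres hF M :=
  ⟨h.1, fun a hc => h.2 0 a (hc.uniCond hF)⟩

lemma smul_mem_trvCentres {M : Subgroup (UG n F q)} {e : Fin n → F} (h : e ∈ trvCentres hF M)
    (c : F) : c • e ∈ trvCentres hF M := by
  refine ⟨by rw [herm_smul_left, herm_smul_right, h.1, mul_zero, mul_zero], fun a hc => ?_⟩
  have h' : TrvCond q e (c * c ^ q * a) :=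
    ⟨h.1, by rw [mul_pow, mul_pow, hF.pow_pow, hc.2]; ring⟩
  have e1 : trv hF hc = trv hF h' := Subtype.ext (LinearEquiv.ext fun w => by
    rw [trv_apply, trv_apply, herm_smul_right, smul_smul]
    congr 2
    ring)
  rw [e1]
  exact h.2 _ _

lemma map_mem_trvCentres {M : Subgroup (UG n F q)} {e : Fin n → F} (h : e ∈ trvCentres hF M)
    {g : UG n F q} (hg : g ∈ M) : g.1 e ∈ trvCentres hF M := by
  refine ⟨by rw [UG_app]; exact h.1, fun a hc => ?_⟩
  have hc' : TrvCond q e a := ⟨h.1, hc.2⟩
  have := mul_mem (mul_mem hg (h.2 _ hc')) (inv_mem hg)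
  rw [trv, uni_conj] at this
  rw [trv]
  convert this using 1
  exact uni_congr hF _ _ rfl (map_zero g.1).symm rfl

omit hF in
lemma herm_rev (hF : SqField F q) {e y : Fin n → F} (h : herm q e y = 1) : herm q y e = 1 := by
  rw [← hF.herm_symm, h, one_pow]

/-- The isotropic points of the line through two centres are centres. -/
lemma line_mem {M : Subgroup (UG n F q)} {e y : Fin n → F} (he : e ∈ trvCentres hF M)
    (hy : y ∈ trvCentres hF M) (hey : herm q e y = 1) {α β : F}
    (h : herm q (α • e + β • y) (α • e + β • y) = 0) : α • e + β • y ∈ trvCentres hF M := by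
  rcases eq_or_ne α 0 with rfl | hα
  · simpa using smul_mem_trvCentres hF hy β
  simp only [herm_add_left, hF.herm_add_right, herm_smul_left, herm_smul_right, he.1, hy.1, hey,
    herm_rev hF hey] at h
  have hc : TrvCond q y (β / α) := ⟨hy.1, by
    rw [div_pow, neg_eq_neg_one_mul]
    field_simp
    linear_combination h⟩
  have := smul_mem_trvCentres hF (map_mem_trvCentres hF he (hy.2 _ hc)) α
  rwa [trv_apply, hey, mul_one, smul_add, smul_smul, mul_div_cancel₀ _ hα] at this

/-- A step along the first centre. -/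
lemma step_fst {M : Subgroup (UG n F q)} {e y r : Fin n → F} (he : e ∈ trvCentres hF M)
    (hey : herm q e y = 1) (hre : herm q r e = 0) {a b s : F} (hs : s ^ q = -s)
    (h : a • e + b • y + r ∈ trvCentres hF M) :
    (a + s * b) • e + b • y + r ∈ trvCentres hF M := by
  have hc : TrvCond q e s := ⟨he.1, hs⟩
  have := map_mem_trvCentres hF h (he.2 s hc)
  rw [trv_apply, herm_add_left, herm_add_left, herm_smul_left, herm_smul_left, he.1,
    herm_rev hF hey, hre] at this
  convert this using 1
  module

/-- A step along the second centre. -/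
lemma step_snd {M : Subgroup (UG n F q)} {e y r : Fin n → F} (hy : y ∈ trvCentres hF M)
    (hey : herm q e y = 1) (hry : herm q r y = 0) {a b s : F} (hs : s ^ q = -s)
    (h : a • e + b • y + r ∈ trvCentres hF M) :
    a • e + (b + s * a) • y + r ∈ trvCentres hF M := by
  have hc : TrvCond q y s := ⟨hy.1, hs⟩
  have := map_mem_trvCentres hF h (hy.2 s hc)
  rw [trv_apply, herm_add_left, herm_add_left, herm_smul_left, herm_smul_left, hy.1, hey, hry]
    at this
  convert this using 1
  module

/-- All isotropic vectors with the same component off the line are centres. -/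
lemma reach {M : Subgroup (UG n F q)} {e y r : Fin n → F} (he : e ∈ trvCentres hF M)
    (hy : y ∈ trvCentres hF M) (hey : herm q e y = 1) (hre : herm q r e = 0)
    (hry : herm q r y = 0) {a b a' b' : F} (hK : a * b ^ q + b * a ^ q ≠ 0)
    (hK' : a' * b' ^ q + b' * a' ^ q = a * b ^ q + b * a ^ q)
    (h : a • e + b • y + r ∈ trvCentres hF M) : a' • e + b' • y + r ∈ trvCentres hF M := by
  have hq0 := hF.q_ne_zero
  have hb'0 : b' ≠ 0 := by rintro rfl; rw [← hK'] at hK; simp [hq0] at hK
  have key : ∀ a b : F, a * b ^ q + b * a ^ q ≠ 0 → a' * b' ^ q + b' * a' ^ q = a * b ^ q + b * a ^ q →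
      (b' - b) * b ^ q - (b' - b) ^ q * b ≠ 0 → a • e + b • y + r ∈ trvCentres hF M →
      a' • e + b' • y + r ∈ trvCentres hF M := by
    intro a b hK0 hK' hden h
    obtain ⟨k, hk⟩ : ∃ k, b' - b = k := ⟨_, rfl⟩
    rw [hk] at hden
    have hb' : b' = b + k := by rw [← hk]; ring
    set s := (k * a ^ q + k ^ q * a) / (k * b ^ q - k ^ q * b) with hsdef
    have hs : s ^ q = -s := by
      rw [hsdef, div_pow, hF.add_pow, hF.sub_pow, mul_pow, mul_pow, mul_pow, mul_pow, hF.pow_pow,
        hF.pow_pow, hF.pow_pow, ← div_neg]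
      congr 1 <;> ring
    have hsol : k * (a + s * b) ^ q + k ^ q * (a + s * b) = 0 := by
      rw [hF.add_pow, mul_pow, hs]
      have : s * (k * b ^ q - k ^ q * b) = k * a ^ q + k ^ q * a := div_mul_cancel₀ _ hden
      linear_combination -this
    have h1 := step_fst hF he hey hre hs h
    obtain ⟨a1, ha1⟩ : ∃ a1, a1 = a + s * b := ⟨_, rfl⟩
    rw [← ha1] at hsol h1
    have hK1 : a1 * b ^ q + b * a1 ^ q = a * b ^ q + b * a ^ q := by
      rw [ha1, hF.add_pow, mul_pow, hs]; ring
    have ha10 : a1 ≠ 0 := by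
      intro h0
      rw [h0, zero_pow hq0] at hK1
      exact hK0 (by linear_combination -hK1)
    have ht : (k / a1) ^ q = -(k / a1) := by
      rw [div_pow, neg_eq_neg_one_mul]
      field_simp
      linear_combination hsol
    have h2 := step_snd hF hy hey hry ht h1
    rw [div_mul_cancel₀ _ ha10, ← hb'] at h2
    have hu : ((a' - a1) / b') ^ q = -((a' - a1) / b') := by
      rw [div_pow, hF.sub_pow, neg_eq_neg_one_mul]
      field_simp
      rw [hb', hF.add_pow] at hK'
      rw [hb', hF.add_pow]
      linear_combination hK' - hK1 - hsol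
    have h3 := step_fst hF he hey hre hu h2
    rwa [div_mul_cancel₀ _ hb'0, add_sub_cancel] at h3
  by_cases hden : (b' - b) * b ^ q - (b' - b) ^ q * b = 0
  · obtain ⟨t, ht0, ht⟩ := hF.exists_skew
    have h1 := step_snd hF hy hey hry ht h
    refine key a (b + t * a) ?_ ?_ ?_ h1
    · rw [hF.add_pow, mul_pow, ht]; convert hK using 1; ring
    · rw [hK', hF.add_pow, mul_pow, ht]; ring
    · intro h0
      rw [hF.sub_pow, hF.add_pow, mul_pow, ht] at h0
      rw [hF.sub_pow] at hden
      have h2 : (b' * a ^ q + b' ^ q * a) * t = 0 := by linear_combination hden - h0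
      have h3 := (mul_eq_zero.1 h2).resolve_right ht0
      have h4 : b' * (a * b ^ q + b * a ^ q) = 0 := by linear_combination b * h3 + a * hden
      exact mul_ne_zero hb'0 hK h4
  · exact key a b hK hK' hden h

/-- Three full groups of transvections with centres not on a line generate `SU_3`. -/
theorem SUG_le_of_three_centres (hq : 3 ≤ q) {M : Subgroup (UG 3 F q)} {e y z : Fin 3 → F}
    (he : e ∈ trvCentres hF M) (hy : y ∈ trvCentres hF M) (hey : herm q e y ≠ 0)
    (hz : z ∈ trvCentres hF M) (hzs : ∀ a b : F, z ≠ a • e + b • y) : SUG 3 F q ≤ M := by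
  wlog hey1 : herm q e y = 1 generalizing e with H
  · refine H (e := (herm q e y)⁻¹ • e) (smul_mem_trvCentres hF he _) ?_ (fun a b hab => ?_) ?_
    · rw [herm_smul_left, inv_mul_cancel₀ hey]; exact one_ne_zero
    · exact hzs (a * (herm q e y)⁻¹) b (by rw [hab, smul_smul])
    · rw [herm_smul_left, inv_mul_cancel₀ hey]
  have hye := herm_rev hF hey1
  set π : (Fin 3 → F) →ₗ[F] (Fin 2 → F) :=
    LinearMap.pi ![hermDual q e, hermDual q y] with hπ
  have hπ0 : ∀ x, π x 0 = herm q x e := fun x => rfl
  have hπ1 : ∀ x, π x 1 = herm q x y := fun x => rfl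
  have hsurj : LinearMap.range π = ⊤ := LinearMap.range_eq_top.2 fun w => ⟨w 1 • e + w 0 • y, by
    ext i; fin_cases i <;>
      simp [hπ0, hπ1, herm_add_left, herm_smul_left, he.1, hy.1, hey1, hye]⟩
  have hker : Module.finrank F (LinearMap.ker π) ≤ 1 := by
    have := LinearMap.finrank_range_add_finrank_ker π
    rw [hsurj, finrank_top, Module.finrank_fin_fun, Module.finrank_fin_fun] at this
    omega
  have hperp : ∀ x : Fin 3 → F, x - herm q x y • e - herm q x e • y ∈ LinearMap.ker π := fun x => by
    rw [LinearMap.mem_ker]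
    ext i; fin_cases i <;>
      simp [hπ0, hπ1, herm_sub_left, herm_smul_left, he.1, hy.1, hey1, hye]
  set r := z - herm q z y • e - herm q z e • y with hr
  have hr0 : r ≠ 0 := fun h0 => hzs (herm q z y) (herm q z e) (by
    rw [hr, sub_sub, sub_eq_zero] at h0; exact h0)
  have hre : herm q r e = 0 := (hπ0 r).symm.trans (by rw [LinearMap.mem_ker.1 (hperp z)]; rfl)
  have hry : herm q r y = 0 := (hπ1 r).symm.trans (by rw [LinearMap.mem_ker.1 (hperp z)]; rfl)
  have her : herm q e r = 0 := by rw [← hF.herm_symm, hre, zero_pow hF.q_ne_zero]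
  have hyr : herm q y r = 0 := by rw [← hF.herm_symm, hry, zero_pow hF.q_ne_zero]
  have hmult : ∀ x : Fin 3 → F, ∃ c : F, x - herm q x y • e - herm q x e • y = c • r := fun x => by
    obtain ⟨v, hv⟩ := finrank_le_one_iff.1 hker
    obtain ⟨c1, hc1⟩ := hv ⟨r, hperp z⟩
    obtain ⟨c2, hc2⟩ := hv ⟨_, hperp x⟩
    have h1 := congrArg Subtype.val hc1
    have h2 := congrArg Subtype.val hc2
    simp only [SetLike.val_smul] at h1 h2
    have hc0 : c1 ≠ 0 := fun h => hr0 (by rw [← h1, h, zero_smul])
    exact ⟨c2 / c1, by rw [← h2, ← h1, smul_smul, div_mul_cancel₀ _ hc0]⟩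
  have hrr : herm q r r ≠ 0 := by
    intro h0
    refine hr0 (hF.eq_zero_of_herm r fun x => ?_)
    obtain ⟨c, hc⟩ := hmult x
    rw [sub_sub, sub_eq_iff_eq_add] at hc
    rw [← hF.herm_symm, hc, herm_add_left, herm_add_left, herm_smul_left, herm_smul_left,
      herm_smul_left, h0, her, hyr]
    simp [hF.q_ne_zero]
  have hval : ∀ (a b c : F), herm q (a • e + b • y + c • r) (a • e + b • y + c • r) =
      a * b ^ q + b * a ^ q + c * c ^ q * herm q r r := fun a b c => by
    simp only [herm_add_left, hF.herm_add_right, herm_smul_left, herm_smul_right, he.1, hy.1, hey1,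
      hye, hre, hry, her, hyr]
    ring
  have hzd : z = herm q z y • e + herm q z e • y + (1 : F) • r := by rw [hr]; module
  have hK : herm q z y * herm q z e ^ q + herm q z e * herm q z y ^ q = -herm q r r := by
    have := hz.1
    rw [hzd, hval] at this
    rw [one_pow, one_mul, one_mul] at this
    linear_combination this
  have hall : ∀ u, herm q u u = 0 → u ∈ trvCentres hF M := by
    intro u hu
    obtain ⟨c, hc⟩ := hmult u
    have hud : u = herm q u y • e + herm q u e • y + c • r := by rw [← hc]; module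
    rcases eq_or_ne c 0 with rfl | hc0
    · rw [zero_smul, add_zero] at hud
      rw [hud] at hu ⊢
      exact line_mem hF he hy hey1 hu
    set a' := c⁻¹ * herm q u y
    set b' := c⁻¹ * herm q u e
    have hud' : u = c • (a' • e + b' • y + r) := by
      conv_lhs => rw [hud]
      simp only [a', b', smul_add, smul_smul, ← mul_assoc, mul_inv_cancel₀ hc0, one_mul]
    rw [hud']
    refine smul_mem_trvCentres hF (reach hF he hy hey1 hre hry (a := herm q z y) (b := herm q z e)
      (by rw [hK]; exact neg_ne_zero.2 hrr) ?_ (by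
        have := hz
        rw [hzd, one_smul] at this
        exact this)) c
    rw [hud', herm_smul_left, herm_smul_right] at hu
    have h1 := ((mul_eq_zero.1 hu).resolve_left hc0 |> mul_eq_zero.1).resolve_left (pow_ne_zero _ hc0)
    have h2 := hval a' b' 1
    rw [one_smul, h1, one_pow, one_mul, one_mul] at h2
    rw [hK]
    linear_combination -h2
  rw [SUG_eq_TG hF (by omega) (by omega), TG, Subgroup.closure_le]
  rintro g ⟨e', a, hea, hg⟩
  rw [mem_TG_generator hF hea hg]
  exact (hall e' hea.1).2 _ _

/-- Two centres and an element moving their line generate `SU_3`. -/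
theorem SUG_le_of_moved_line (hq : 3 ≤ q) {M : Subgroup (UG 3 F q)} {e y : Fin 3 → F}
    (he : e ∈ trvCentres hF M) (hy : y ∈ trvCentres hF M) (hey : herm q e y ≠ 0)
    {g : UG 3 F q} (hg : g ∈ M)
    (hmove : ∀ a b : F, g.1 e ≠ a • e + b • y) : SUG 3 F q ≤ M :=
  SUG_le_of_three_centres hF hq he hy hey (map_mem_trvCentres hF he hg) hmove

end Cfsg.Agent.SUThreeMax
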