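import Cfsg.Agent.SUThreeMax.Root

/-!
Stabilisers of isotropic and of non-degenerate points are maximal in `SU_3(q)`.
-/

set_option autoImplicit false

namespace Cfsg.Agent.SUThreeMax

open Matrix Cfsg.Geo Cfsg.Agent.Classical.U Cfsg.Agent.ClassicalMax Cfsg.Agent.GeoClasses
open scoped MatrixGroups Matrix

universe u

variable {F : Type u} [Field F] {q : ℕ}

lemma suGL_le_of_SUG_le {M : Subgroup (GL (Fin 3) F)}
    (h : SUG 3 F q ≤ M.comap (ugToGL 3 F q)) : suGL 3 F q ≤ M := by
  intro g hg
  obtain ⟨k, hk, rfl⟩ := exists_ugToGL_eq hg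
  exact h hk

variable (hF : SqField F q)
include hF

/-- The vectors orthogonal to both members of a pair form a line. -/
lemma perp_multiple {e f : Fin 3 → F} (hp : IsUPair q e f) {x y : Fin 3 → F}
    (hxe : herm q x e = 0) (hxf : herm q x f = 0) (hye : herm q y e = 0) (hyf : herm q y f = 0)
    (hx : x ≠ 0) : ∃ c : F, y = c • x := by
  set π : (Fin 3 → F) →ₗ[F] (Fin 2 → F) :=
    LinearMap.pi ![hermDual q e, hermDual q f] with hπ
  have hπ0 : ∀ x, π x 0 = herm q x e := fun x => rfl
  have hπ1 : ∀ x, π x 1 = herm q x f := fun x => rfl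
  have hsurj : LinearMap.range π = ⊤ := LinearMap.range_eq_top.2 fun w => ⟨w 1 • e + w 0 • f, by
    ext i; fin_cases i <;>
      simp [hπ0, hπ1, herm_add_left, herm_smul_left, hp.1, hp.2.1, hp.2.2, herm_rev hF hp.2.2]⟩
  have hker : Module.finrank F (LinearMap.ker π) ≤ 1 := by
    have := LinearMap.finrank_range_add_finrank_ker π
    rw [hsurj, finrank_top, Module.finrank_fin_fun, Module.finrank_fin_fun] at this
    omega
  have mem : ∀ v, herm q v e = 0 → herm q v f = 0 → v ∈ LinearMap.ker π := fun v h1 h2 => by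
    rw [LinearMap.mem_ker]; ext i; fin_cases i
    · exact h1
    · exact h2
  obtain ⟨v, hv⟩ := finrank_le_one_iff.1 hker
  obtain ⟨c1, h1⟩ := hv ⟨x, mem x hxe hxf⟩
  obtain ⟨c2, h2⟩ := hv ⟨y, mem y hye hyf⟩
  have h1' := congrArg Subtype.val h1
  have h2' := congrArg Subtype.val h2
  simp only [SetLike.val_smul] at h1' h2'
  have hc0 : c1 ≠ 0 := fun h => hx (by rw [← h1', h, zero_smul])
  exact ⟨c2 / c1, by rw [← h2', ← h1', smul_smul, div_mul_cancel₀ _ hc0]⟩

/-- The Hermitian decomposition along a pair. -/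
lemma perp_pair {e f : Fin 3 → F} (hp : IsUPair q e f) {u : Fin 3 → F} (hue : herm q u e = 0)
    (hu : herm q u u = 0) : u = herm q u f • e := by
  obtain ⟨he, hf, hef⟩ := hp
  have hfe := herm_rev hF hef
  set r := u - herm q u f • e with hr
  have hre : herm q r e = 0 := by rw [hr, herm_sub_left, herm_smul_left, hue, he]; ring
  have hrf : herm q r f = 0 := by rw [hr, herm_sub_left, herm_smul_left, hef]; ring
  have her : herm q e r = 0 := by rw [← hF.herm_symm, hre, zero_pow hF.q_ne_zero]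
  have hfr : herm q f r = 0 := by rw [← hF.herm_symm, hrf, zero_pow hF.q_ne_zero]
  have hrr : herm q r r = 0 := by
    rw [hr, herm_sub_left, hF.herm_sub_right, hF.herm_sub_right, herm_smul_left, herm_smul_left,
      herm_smul_right, herm_smul_right, hu, he, hue, ← hF.herm_symm u e, hue, zero_pow hF.q_ne_zero]
    ring
  rw [← sub_eq_zero]
  show r = 0
  by_contra hr0
  refine hr0 (hF.eq_zero_of_herm r fun x => ?_)
  set x' := x - herm q x f • e - herm q x e • f with hx'
  obtain ⟨c, hc⟩ := perp_multiple hF ⟨he, hf, hef⟩ hre hrf (y := x')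
    (by rw [hx', herm_sub_left, herm_sub_left, herm_smul_left, herm_smul_left, he, hfe]; ring)
    (by rw [hx', herm_sub_left, herm_sub_left, herm_smul_left, herm_smul_left, hf, hef]; ring) hr0
  have hx : x = herm q x f • e + herm q x e • f + c • r := by rw [← hc, hx']; abel
  rw [hx, hF.herm_add_right, hF.herm_add_right, herm_smul_right, herm_smul_right, herm_smul_right,
    hre, hrf, hrr]
  ring

/-- An element which does not fix an isotropic line moves it to a non-orthogonal one. -/
lemma not_orth_of_moved {e u : Fin 3 → F} (he0 : e ≠ 0) (he : herm q e e = 0) (hu : herm q u u = 0)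
    (hne : ∀ c : F, u ≠ c • e) : herm q e u ≠ 0 := by
  intro h
  obtain ⟨f, -, hp⟩ := exists_pair_mem hF (S := ⊤) (e := e) trivial he (by
    by_contra hcon
    push Not at hcon
    refine he0 (hF.eq_zero_of_herm e fun v => ?_)
    rw [← hF.herm_symm, hcon v trivial, zero_pow hF.q_ne_zero])
  exact hne _ (perp_pair hF hp (by rw [← hF.herm_symm, h, zero_pow hF.q_ne_zero]) hu)

/-- Stabilisers of isotropic points are maximal. -/
theorem singular_maximal (hq : 3 ≤ q) {W : Submodule F (Fin 3 → F)} (hW0 : W ≠ ⊥)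
    (hW : IsTotallySingularFor (Cfsg.hermForm 3 F q) W) :
    IsMaximalIn (suGL 3 F q) (subspaceStabilizer W ⊓ suGL 3 F q) := by
  obtain ⟨e, heW, he0⟩ := Submodule.exists_mem_ne_zero_of_ne_bot hW0
  have he : herm q e e = 0 := hW e heW e heW
  have hWe : ∀ w ∈ W, ∃ c : F, w = c • e := fun w hw => by
    by_contra hne
    push Not at hne
    exact not_orth_of_moved hF he0 he (hW w hw w hw) hne (hW e heW w hw)
  have hW1 : W ≠ ⊤ := by
    rintro rfl
    exact he0 (hF.eq_zero_of_herm e fun v => hW e trivial v trivial)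
  refine ⟨lt_of_le_not_ge inf_le_right fun hle =>
    suGL_not_le_stabilizer hF (by omega) hW0 hW1 (hle.trans inf_le_left), fun M hM hMK => ?_⟩
  by_cases hMW : M ≤ subspaceStabilizer W
  · exact Or.inl (le_antisymm (le_inf hMW hMK) hM)
  refine Or.inr (le_antisymm hMK (suGL_le_of_SUG_le ?_))
  set M' := M.comap (ugToGL 3 F q) with hM'
  have hec : e ∈ uniCentres hF M' := ⟨he, fun x a hc => hM
    ⟨mem_subspaceStabilizer_of_le fun w hwW => by
      obtain ⟨c, rfl⟩ := hWe w hwW
      rw [ugToGL_mulVec, uni_apply, herm_smul_left, herm_smul_left, he,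
        show herm q e x = 0 from uniCond_ex hF hc]
      simpa using W.smul_mem c heW,
      ugToGL_mem_suGL (det_uni hF hc)⟩⟩
  obtain ⟨g, hg, hge⟩ : ∃ g ∈ M', ∀ c : F, g.1 e ≠ c • e := by
    by_contra hcon
    push Not at hcon
    refine hMW fun g hg => ?_
    obtain ⟨k, -, rfl⟩ := exists_ugToGL_eq (hMK hg)
    obtain ⟨c, hc⟩ := hcon k hg
    refine mem_subspaceStabilizer_of_le fun w hw => ?_
    obtain ⟨d, rfl⟩ := hWe w hw
    rw [ugToGL_mulVec, map_smul, hc]
    exact W.smul_mem _ (W.smul_mem _ heW)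
  have hy := map_mem_trvCentres hF (uniCentres_subset hF hec) hg
  have hey : herm q e (g.1 e) ≠ 0 :=
    not_orth_of_moved hF he0 he (by rw [UG_app]; exact he) hge
  set f := (herm q (g.1 e) e)⁻¹ • g.1 e with hf
  have hge' : herm q (g.1 e) e ≠ 0 := by rw [← hF.herm_symm]; exact pow_ne_zero _ hey
  have hfe : herm q f e = 1 := by rw [hf, herm_smul_left, inv_mul_cancel₀ hge']
  have hef : herm q e f = 1 := herm_rev hF hfe
  have hfc : f ∈ trvCentres hF M' := smul_mem_trvCentres hF hy _
  obtain ⟨x, hxe, hxf, hx0⟩ : ∃ x, herm q x e = 0 ∧ herm q x f = 0 ∧ x ≠ 0 := by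
    by_contra hcon
    push Not at hcon
    have hinj : Function.Injective (LinearMap.pi ![hermDual q e, hermDual q f] :
        (Fin 3 → F) →ₗ[F] Fin 2 → F) := (injective_iff_map_eq_zero _).2 fun x hx =>
      hcon x (congrFun hx 0) (congrFun hx 1)
    have := LinearMap.finrank_le_finrank_of_injective hinj
    simp at this
  obtain ⟨t, ht⟩ := hF.exists_trace (c := -herm q x x) (by rw [hF.neg_pow, hF.herm_symm])
  have hc : UniCond q e x t := ⟨he, hxe, by linear_combination ht⟩
  refine SUG_le_of_three_centres hF hq (uniCentres_subset hF hec) hfc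
    (by rw [hef]; exact one_ne_zero) (map_mem_trvCentres hF hfc (hec.2 _ _ hc)) fun a b hab => ?_
  have hex := uniCond_ex hF hc
  have hfx : herm q f x = 0 := by rw [← hF.herm_symm, hxf, zero_pow hF.q_ne_zero]
  rw [uni_apply, hfe, hfx] at hab
  refine hx0 ?_
  have h1 := congrArg (fun w => herm q w f) hab
  have h2 := congrArg (fun w => herm q w e) hab
  simp only [herm_add_left, herm_sub_left, herm_smul_left, herm_neg_left, he, hfc.1, hef, hfe, hxe,
    hxf] at h1 h2
  have eb : b = 1 := by linear_combination -h2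
  subst eb
  rw [← sub_eq_zero] at hab
  refine (smul_eq_zero.1 (?_ : (1 : F) • x = 0)).resolve_left one_ne_zero
  rw [← hab]
  have ea : a = t := by linear_combination -h1
  rw [ea]
  module

/-- Stabilisers of non-degenerate points are maximal. -/
theorem nondeg_maximal (hq : 3 ≤ q) {W : Submodule F (Fin 3 → F)} (hW0 : W ≠ ⊥)
    (hW : IsNondegenerateOn (Cfsg.hermForm 3 F q) W) (hdim : 2 * Module.finrank F W < 3) :
    IsMaximalIn (suGL 3 F q) (subspaceStabilizer W ⊓ suGL 3 F q) := by
  obtain ⟨z, hzW, hz0⟩ := Submodule.exists_mem_ne_zero_of_ne_bot hW0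
  have hWz : ∀ w ∈ W, ∃ c : F, w = c • z := fun w hw => by
    obtain ⟨v, hv⟩ := finrank_le_one_iff.1 (show Module.finrank F W ≤ 1 by omega)
    obtain ⟨c1, h1⟩ := hv ⟨z, hzW⟩
    obtain ⟨c2, h2⟩ := hv ⟨w, hw⟩
    have h1' := congrArg Subtype.val h1
    have h2' := congrArg Subtype.val h2
    simp only [SetLike.val_smul] at h1' h2'
    have hc0 : c1 ≠ 0 := fun h => hz0 (by rw [← h1', h, zero_smul])
    exact ⟨c2 / c1, by rw [← h2', ← h1', smul_smul, div_mul_cancel₀ _ hc0]⟩
  have hzz : herm q z z ≠ 0 := by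
    intro h0
    obtain ⟨-, x, hx, hx'⟩ := hW z hzW hz0
    obtain ⟨c, rfl⟩ := hWz x hx
    apply hx'
    show herm q z (c • z) = 0
    rw [herm_smul_right, h0, mul_zero]
  have hW1 : W ≠ ⊤ := by
    rintro rfl
    rw [finrank_top, Module.finrank_fin_fun] at hdim
    omega
  refine ⟨lt_of_le_not_ge inf_le_right fun hle =>
    suGL_not_le_stabilizer hF (by omega) hW0 hW1 (hle.trans inf_le_left), fun M hM hMK => ?_⟩
  by_cases hMW : M ≤ subspaceStabilizer W
  · exact Or.inl (le_antisymm (le_inf hMW hMK) hM)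
  refine Or.inr (le_antisymm hMK (suGL_le_of_SUG_le ?_))
  set M' := M.comap (ugToGL 3 F q) with hM'
  let S : Submodule F (Fin 3 → F) := LinearMap.ker (hermDual q z)
  have hS : 2 ≤ Module.finrank F S := by
    have h1 := LinearMap.finrank_range_add_finrank_ker (hermDual q z)
    have h2 := Submodule.finrank_le (LinearMap.range (hermDual q z))
    rw [Module.finrank_self] at h2
    rw [Module.finrank_fin_fun] at h1
    show 2 ≤ Module.finrank F (LinearMap.ker (hermDual q z)); omega
  obtain ⟨e, heS, he0, he⟩ := exists_isotropic_mem hF hS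
  have hez : herm q e z = 0 := heS
  obtain ⟨f, hfS, hp⟩ := exists_pair_mem hF (S := S) heS he (by
    by_contra hcon
    push Not at hcon
    refine he0 (hF.eq_zero_of_herm e fun v => ?_)
    have hv : v - (herm q v z / herm q z z) • z ∈ S := by
      show herm q _ z = 0
      rw [herm_sub_left, herm_smul_left, div_mul_cancel₀ _ hzz, sub_self]
    have := hcon _ hv
    rw [herm_sub_left, herm_smul_left, ← hF.herm_symm e z, hez, zero_pow hF.q_ne_zero, mul_zero,
      sub_zero] at this
    rw [← hF.herm_symm, this, zero_pow hF.q_ne_zero])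
  have hfz : herm q f z = 0 := hfS
  have cent : ∀ u, herm q u u = 0 → herm q u z = 0 → u ∈ trvCentres hF M' := fun u hu huz =>
    ⟨hu, fun a hc => hM ⟨mem_subspaceStabilizer_of_le fun w hwW => by
      obtain ⟨c, rfl⟩ := hWz w hwW
      rw [ugToGL_mulVec, trv_apply, herm_smul_left, ← hF.herm_symm u z, huz,
        zero_pow hF.q_ne_zero]
      simpa using W.smul_mem c hzW,
      ugToGL_mem_suGL (det_uni hF _)⟩⟩
  obtain ⟨g, hg, hgz⟩ : ∃ g ∈ M', ∀ c : F, g.1 z ≠ c • z := by
    by_contra hcon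
    push Not at hcon
    refine hMW fun g hg => ?_
    obtain ⟨k, -, rfl⟩ := exists_ugToGL_eq (hMK hg)
    obtain ⟨c, hc⟩ := hcon k hg
    refine mem_subspaceStabilizer_of_le fun w hw => ?_
    obtain ⟨d, rfl⟩ := hWz w hw
    rw [ugToGL_mulVec, map_smul, hc]
    exact W.smul_mem _ (W.smul_mem _ hzW)
  obtain ⟨u, hu, huz, hgu⟩ : ∃ u, herm q u u = 0 ∧ herm q u z = 0 ∧ herm q (g.1 u) z ≠ 0 := by
    by_contra hcon
    push Not at hcon
    have h1 := hcon e he hez
    have h2 := hcon f hp.2.1 hfz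
    obtain ⟨w, hw⟩ := g.1.surjective z
    have e1 : herm q w e = 0 := by
      rw [← UG_app g, hw, ← hF.herm_symm, h1, zero_pow hF.q_ne_zero]
    have e2 : herm q w f = 0 := by
      rw [← UG_app g, hw, ← hF.herm_symm, h2, zero_pow hF.q_ne_zero]
    obtain ⟨c, hc⟩ := perp_multiple hF hp (by rw [← hF.herm_symm, hez, zero_pow hF.q_ne_zero])
      (by rw [← hF.herm_symm, hfz, zero_pow hF.q_ne_zero]) e1 e2 hz0
    rw [hc, map_smul] at hw
    have hc0 : c ≠ 0 := fun h => hz0 (by rw [← hw, h, zero_smul])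
    exact hgz c⁻¹ (by conv_rhs => rw [← hw, inv_smul_smul₀ hc0])
  refine SUG_le_of_three_centres hF hq (cent e he hez) (cent f hp.2.1 hfz)
    (by rw [hp.2.2]; exact one_ne_zero) (map_mem_trvCentres hF (cent u hu huz) hg) fun a b hab =>
    hgu ?_
  rw [hab, herm_add_left, herm_smul_left, herm_smul_left, hez, hfz]
  ring

end Cfsg.Agent.SUThreeMax
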